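import Cfsg.Agent.H6.S4.If
import Cfsg.Agent.H6.S4.F0

/-! Normalisers of groups of regular unipotent elements in `PSp₄`. -/

set_option autoImplicit false
set_option linter.unusedSimpArgs false
set_option linter.unusedSectionVars false
set_option linter.unusedVariables false

namespace Cfsg.Agent.H5.S4

open Module Matrix Subgroup Cfsg.Agent.H9.Sp Cfsg.Agent.H8.M3 Cfsg.Agent.H6.S4

universe u

variable {k : Type*} [Field k] {A X : Matrix (Fin 4) (Fin 4) k}

/-- lower triangular Toeplitz matrices -/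
def tp (a b c d : k) : Matrix (Fin 4) (Fin 4) k := !![a, 0, 0, 0; b, a, 0, 0; c, b, a, 0; d, c, b, a]

/-- lower triangular matrices -/
def Low (A : Matrix (Fin 4) (Fin 4) k) : Prop :=
  A 0 1 = 0 ∧ A 0 2 = 0 ∧ A 0 3 = 0 ∧ A 1 2 = 0 ∧ A 1 3 = 0 ∧ A 2 3 = 0

theorem ent {A X : Matrix (Fin 4) (Fin 4) k} (e : A = X) (i j : Fin 4) : A i j = X i j := by rw [e]

theorem tp_pow {p : ℕ} [Fact p.Prime] [CharP k p] (hp : 4 ≤ p) (a b c d : k) : tp a b c d ^ p = a ^ p • 1 := by
  have h : (tp a b c d - a • 1) ^ 4 = 0 := by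
    rw [show tp a b c d - a • 1 = tp 0 b c d by ext i j; fin_cases i <;> fin_cases j <;> simp [tp]]
    ext i j; fin_cases i <;> fin_cases j <;> simp [tp, pow_succ]
  have := pow_eq_zero_of_le hp h
  rwa [sub_pow_char_of_commute _ ((Commute.one_right _).smul_right a), sub_eq_zero, smul_pow, one_pow] at this

theorem low_of_tp {b c d : k} (e : A * tp 1 1 0 0 = tp 1 b c d * A) :
    Low A ∧ A 1 1 = b * A 0 0 ∧ A 2 2 = b * A 1 1 ∧ A 3 3 = b * A 2 2 := by
  have h : ∀ i j, ∑ l, A i l * tp 1 1 0 0 l j = ∑ l, tp 1 b c d i l * A l j := ent e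
  simp only [Fin.sum_univ_four, tp] at h
  have a1 : A 0 1 = 0 := by simpa using h 0 0
  have a2 : A 0 2 = 0 := by simpa using h 0 1
  have a3 : A 0 3 = 0 := by simpa using h 0 2
  have a4 : A 1 2 = 0 := by simpa [a1] using h 1 1
  have a5 : A 1 3 = 0 := by simpa [a2] using h 1 2
  have a6 : A 2 3 = 0 := by simpa [a2, a4] using h 2 2
  exact ⟨⟨a1, a2, a3, a4, a5, a6⟩, by
    have := h 1 0; simp at this; linear_combination this, by
    have := h 2 1; simp [a1] at this; linear_combination this,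
    by
    have := h 3 2; simp [a2, a4] at this; linear_combination this⟩

theorem tp_of_comm (e : A * tp 1 1 0 0 = tp 1 1 0 0 * A) : A = tp (A 0 0) (A 1 0) (A 2 0) (A 3 0) := by
  obtain ⟨⟨a1, a2, a3, a4, a5, a6⟩, b1, b2, b3⟩ := low_of_tp e
  have h : ∀ i j, ∑ l, A i l * tp 1 1 0 0 l j = ∑ l, tp 1 1 0 0 i l * A l j := ent e
  simp only [Fin.sum_univ_four, tp] at h
  have c1 : A 2 1 = A 1 0 := by
    have := h 2 0; simp at this; linear_combination this
  have c2 : A 3 2 = A 2 1 := by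
    have := h 3 1; simp at this; linear_combination this
  have c3 : A 3 1 = A 2 0 := by
    have := h 3 0; simp at this; linear_combination this
  ext i j
  fin_cases i <;> fin_cases j <;> simp [tp, *]

theorem Low.mul (h : Low A) (h' : Low X) : Low (A * X) ∧ (∀ i, (A * X) i i = A i i * X i i) ∧
    ∀ i : Fin 3, (A * X) i.succ i.castSucc = A i.succ i.succ * X i.succ i.castSucc +
      A i.succ i.castSucc * X i.castSucc i.castSucc := by
  obtain ⟨a1, a2, a3, a4, a5, a6⟩ := h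
  obtain ⟨b1, b2, b3, b4, b5, b6⟩ := h'
  refine ⟨by simp [Low, mul_apply, Fin.sum_univ_four, *], fun i => ?_, fun i => ?_⟩ <;> fin_cases i <;>
    simp [mul_apply, Fin.sum_univ_four, *] <;> ring

theorem Low.of_comm (h : Low A) (hd : ∀ i j, i ≠ j → A i i ≠ A j j) (e : X * A = A * X) : Low X := by
  obtain ⟨a1, a2, a3, a4, a5, a6⟩ := h
  have key : ∀ i j, i ≠ j → X i j * A j j = A i i * X i j → X i j = 0 := fun i j hij e =>
    (mul_eq_zero.1 (show (A i i - A j j) * X i j = 0 by linear_combination -e)).resolve_left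
      (sub_ne_zero.2 (hd i j hij))
  have h3 := key 0 3 (by decide) (by simpa [mul_apply, Fin.sum_univ_four, *] using ent e 0 3)
  have h2 := key 0 2 (by decide) (by simpa [mul_apply, Fin.sum_univ_four, *] using ent e 0 2)
  have h1 := key 0 1 (by decide) (by simpa [mul_apply, Fin.sum_univ_four, *] using ent e 0 1)
  have h5 := key 1 3 (by decide) (by simpa [mul_apply, Fin.sum_univ_four, *] using ent e 1 3)
  have h4 := key 1 2 (by decide) (by simpa [mul_apply, Fin.sum_univ_four, *] using ent e 1 2)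
  exact ⟨h1, h2, h3, h4, h5, key 2 3 (by decide) (by simpa [mul_apply, Fin.sum_univ_four, *] using ent e 2 3)⟩

theorem Low.cube (h : Low A) (h1 : ∀ i, A i i = 1) (h2 : ∀ i : Fin 3, A i.succ i.castSucc = 0) :
    (A - 1) ^ 3 = 0 := by
  obtain ⟨a1, a2, a3, a4, a5, a6⟩ := h
  have b0 : A 1 0 = 0 := h2 0
  have b1 : A 2 1 = 0 := h2 1
  have b2 : A 3 2 = 0 := h2 2
  ext i j; fin_cases i <;> fin_cases j <;> simp [pow_succ, mul_apply, Fin.sum_univ_four, one_apply, *]

theorem Low.eig (h : Low A) {x : Fin 4 → k} {c : k} (hx : x ≠ 0) (e : A *ᵥ x = c • x) : ∃ i, c = A i i := by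
  obtain ⟨a1, a2, a3, a4, a5, a6⟩ := h
  by_contra! h
  have key : ∀ i, A i i * x i = c * x i → x i = 0 := fun i e =>
    (mul_eq_zero.1 (show (c - A i i) * x i = 0 by linear_combination -e)).resolve_left (sub_ne_zero.2 (h i))
  have h0 := key 0 (by simpa [mulVec, dotProduct, Fin.sum_univ_four, *] using congrFun e 0)
  have h1 := key 1 (by simpa [mulVec, dotProduct, Fin.sum_univ_four, *] using congrFun e 1)
  have h2 := key 2 (by simpa [mulVec, dotProduct, Fin.sum_univ_four, *] using congrFun e 2)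
  have h3 := key 3 (by simpa [mulVec, dotProduct, Fin.sum_univ_four, *] using congrFun e 3)
  exact hx (by ext i; fin_cases i <;> simp [*])

theorem five_of {M : Type*} [CommGroup M] {a : M} {j : ℕ} (h4 : 4 ≤ orderOf a) (ho : Odd (orderOf a))
    (hj : a ^ (j * j) = a⁻¹) (h : a ^ (3 * j) * a ^ 3 = 1 ∨ a ^ (3 * j) * a = 1 ∨ a ^ (3 * j) = a ∨
      a ^ (3 * j) = a ^ 3) : orderOf a = 5 := by
  have e1 : (a ^ (3 * j)) ^ j = (a ^ 3)⁻¹ := by rw [← inv_pow, ← hj, ← pow_mul, ← pow_mul]; ring_nf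
  have e2 : (a ^ (3 * j)) ^ (3 * j) = (a ^ 9)⁻¹ := by rw [← inv_pow, ← hj, ← pow_mul, ← pow_mul]; ring_nf
  have e3 : (a ^ 3) ^ j = a ^ (3 * j) := (pow_mul _ _ _).symm
  have : a ^ 6 = 1 ∨ a ^ 10 = 1 := by
    rcases h with h | h | h | h
    · rw [eq_inv_of_mul_eq_one_left h, inv_pow, e3, eq_inv_of_mul_eq_one_left h, inv_inv, eq_inv_iff_mul_eq_one,
        ← pow_add] at e1
      exact .inl e1
    · rw [eq_inv_of_mul_eq_one_left h, inv_pow, eq_inv_of_mul_eq_one_left h, inv_inv, eq_inv_iff_mul_eq_one,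
        ← pow_succ'] at e2
      exact .inr e2
    · rw [h, h, eq_inv_iff_mul_eq_one, ← pow_succ'] at e2
      exact .inr e2
    · rw [h, e3, h, eq_inv_iff_mul_eq_one, ← pow_add] at e1
      exact .inl e1
  rcases this with h | h <;> have h1 := orderOf_dvd_of_pow_eq_one h <;> have := Nat.le_of_dvd (by simp) h1 <;>
    generalize orderOf a = n at * <;> interval_cases n <;> simp_all (config := {decide := true})

theorem unNu_abs {P : Type*} {G : Type u} [Group P] [Finite P] [Group G] {p : ℕ} [Fact p.Prime] [CharP k p]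
    (h2 : (2 : k) ≠ 0) (hp : 4 ≤ p) {π : P →* G} (surj : Function.Surjective π) (φ : P →* Matrix (Fin 4) (Fin 4) k)
    (inj : Function.Injective φ) (ker : ∀ g, π g = 1 ↔ φ g = 1 ∨ φ g = -1)
    (scal : ∀ g (c : k), φ g = c • 1 → π g = 1) (reg : ∀ g, (φ g - 1) ^ 3 = 0 → g = 1) {u : P}
    (hu : φ u = tp 1 1 0 0) (pair : ∀ g, Low (φ g) → φ g 0 0 * φ g 3 3 = 1) (hd : Dih G) :
    (∀ y ∈ Cen (π u), y ^ p = 1) ∧ ∃ τ ∈ normalizer (Cen (π u) : Set G), orderOf τ = nu (π u) ∧
      (4 ≤ nu (π u) → (∀ y ∈ Cen τ, y ∈ normalizer (Cen (π u) : Set G)) ∧ ∀ (n : G) (j : ℕ),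
        n * τ * n⁻¹ = τ ^ j → Odd (nu (π u)) → τ ^ (j * j) = τ⁻¹ → nu (π u) = 5) := by
  have : Finite G := Finite.of_surjective π surj
  have hpo : Odd p := (Fact.out : p.Prime).odd_of_ne_two (by omega)
  have n1 : (1 : Matrix (Fin 4) (Fin 4) k) ≠ -1 := fun e => h2 (by
    have := ent e 0 0; simp at this; linear_combination this)
  have pm : ∀ a b : P, π a = π b → φ a = φ b ∨ φ a = -φ b := fun a b e => by
    have := (ker (a * b⁻¹)).1 (by simp [e])
    refine this.imp (fun e => ?_) fun e => ?_ <;> simpa [← map_mul] using congrArg (· * φ b) e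
  have sgn : ∀ (a b : P) (n : ℕ), π (b ^ n) = 1 → φ (a * b * a⁻¹) = -φ b → Even n := fun a b n e1 e2 => by
    by_contra ho
    have e3 := congrArg (· ^ n) e2
    simp only [(Nat.not_even_iff_odd.1 ho).neg_pow] at e3
    rw [← map_pow, ← map_pow, conj_pow, map_mul, map_mul] at e3
    rcases (ker _).1 e1 with e | e <;> simp [e, ← map_mul, n1, n1.symm] at e3
  have up : φ (u ^ p) = 1 := by rw [map_pow, hu, tp_pow hp]; simp
  have cm : ∀ g, π g ∈ Cen (π u) → g * u = u * g := fun g hg => mul_inv_eq_iff_eq_mul.1 (inj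
    ((pm _ _ (by simp [← mem_Cen.1 hg])).resolve_right fun e =>
      Nat.not_even_iff_odd.2 hpo (sgn g u p ((ker _).2 (.inl up)) e)))
  have cen : ∀ g, π g ∈ Cen (π u) → ∃ a b c d, φ g = tp a b c d := fun g hg =>
    ⟨_, _, _, _, tp_of_comm (by rw [← hu, ← map_mul, cm g hg, map_mul])⟩
  have c1 : ∀ y ∈ Cen (π u), y ^ p = 1 := fun y hy => by
    obtain ⟨g, rfl⟩ := surj y
    obtain ⟨a, b, c, d, e⟩ := cen g hy
    exact map_pow π g p ▸ scal _ _ (by rw [map_pow, e, tp_pow hp])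
  have lpow : ∀ g, Low (φ g) → ∀ n : ℕ, Low (φ (g ^ n)) ∧ ∀ i, φ (g ^ n) i i = φ g i i ^ n := fun g hg n => by
    induction n with
    | zero => simp [Low]
    | succ n ih => simpa [pow_succ, ← ih.2] using And.imp_right And.left (ih.1.mul hg)
  have linv : ∀ g, Low (φ g) → Low (φ g⁻¹) := fun g hg => by
    obtain ⟨n, e⟩ := (mem_powers_iff_mem_zpowers (x := g) (y := g⁻¹)).2 (inv_mem (mem_zpowers g))
    exact e ▸ (lpow g hg n).1
  have dne : ∀ g, Low (φ g) → ∀ i, φ g i i ≠ 0 := fun g hg i => left_ne_zero_of_mul_eq_one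
    (by rw [← (hg.mul (linv g hg)).2.1, ← map_mul]; simp)
  have lu : Low (φ u) := by simp [hu, Low, tp]
  have nrm : ∀ g, π g ∈ normalizer (Cen (π u) : Set G) → ∃ b c d, φ (g * u * g⁻¹) = tp 1 b c d ∧ Low (φ g) ∧
      φ g 1 1 = b * φ g 0 0 ∧ φ g 2 2 = b * φ g 1 1 ∧ φ g 3 3 = b * φ g 2 2 := fun g hg => by
    obtain ⟨a, b, c, d, e⟩ := cen (g * u * g⁻¹) (by simpa using (hg _).1 (self_mem_Cen _))
    have e1 := tp_pow hp a b c d
    rw [← e, ← map_pow, conj_pow, map_mul, map_mul, up, mul_one, ← map_mul, mul_inv_cancel, map_one] at e1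
    obtain rfl : a = 1 := frobenius_inj k p (by simpa [frobenius_def] using (ent e1 0 0).symm)
    exact ⟨b, c, d, e, low_of_tp (by rw [← e, ← hu, ← map_mul, ← map_mul, inv_mul_cancel_right])⟩
  have nrm' : ∀ g, Low (φ g) → π g ∈ normalizer (Cen (π u) : Set G) := fun g hg =>
    mem_normalizer_fintype fun y hy => by
      obtain ⟨y, rfl⟩ := surj y
      obtain ⟨a, b, c, d, e⟩ := cen y hy
      have ly : Low (φ y) := by simp [e, Low, tp]
      obtain ⟨l1, l2, -⟩ := (hg.mul ly).1.mul (linv g hg)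
      have l3 : ∀ i, φ (g * y * g⁻¹) i i = a := fun i => by
        rw [map_mul, map_mul, l2, (hg.mul ly).2.1, mul_right_comm, ← (hg.mul (linv g hg)).2.1, ← map_mul, e]
        fin_cases i <;> simp [tp]
      have a0 : a ≠ 0 := by simpa [e, tp] using dne y ly 0
      simp only [← map_mul, ← map_inv] at l1 ⊢
      generalize g * y * g⁻¹ = y at l1 l3
      have lx : Low (φ (y * u * (u * y)⁻¹)) :=
        map_mul φ _ _ ▸ ((map_mul φ y u ▸ (l1.mul lu).1).mul (linv _ (map_mul φ u y ▸ (lu.mul l1).1))).1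
      obtain ⟨-, m1, m2⟩ := lx.mul (lu.mul l1).1
      simp only [← map_mul φ u, ← map_mul φ _ (u * y), inv_mul_cancel_right] at m1 m2
      simp only [map_mul φ u, map_mul φ y u, (lu.mul l1).2, (l1.mul lu).2, l3] at m1 m2
      have du : ∀ i, φ u i i = 1 := fun i => by fin_cases i <;> simp [hu, tp]
      have d1 : ∀ i, φ (y * u * (u * y)⁻¹) i i = 1 := fun i =>
        mul_right_cancel₀ a0 (by simpa [du] using (m1 i).symm)
      have := reg _ (lx.cube d1 fun i => mul_right_cancel₀ a0 (by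
        have := m2 i
        rw [d1, du, du] at this
        linear_combination -this))
      exact mem_Cen.2 (by rw [← map_mul, ← map_mul, mul_inv_eq_one.1 this])
  choose s hs using surj
  have rat : ∀ g g', π g = π g' → φ g 1 1 / φ g 0 0 = φ g' 1 1 / φ g' 0 0 := fun g g' e => by
    rcases pm _ _ e with e | e <;> simp [e, neg_div_neg_eq]
  have ls : ∀ n : normalizer (Cen (π u) : Set G), Low (φ (s n)) := fun n =>
    let ⟨_, _, _, _, h, _⟩ := nrm _ ((hs n).symm ▸ n.2)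
    h
  let χ : normalizer (Cen (π u) : Set G) →* kˣ := MonoidHom.mk'
    (fun n => Units.mk0 (φ (s n) 1 1 / φ (s n) 0 0) (div_ne_zero (dne _ (ls n) _) (dne _ (ls n) _)))
    fun a b => Units.ext (by
      simp only [Units.val_mul, Units.val_mk0]
      rw [rat _ (s a * s b) (by simp [hs]), map_mul, ((ls a).mul (ls b)).2.1, ((ls a).mul (ls b)).2.1,
        div_mul_div_comm])
  have hk : (Cen (π u)).subgroupOf _ = χ.ker := by
    ext n
    rw [mem_subgroupOf, MonoidHom.mem_ker, Units.ext_iff]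
    change _ ↔ φ (s n) 1 1 / φ (s n) 0 0 = 1
    rw [div_eq_one_iff_eq (dne _ (ls n) _)]
    refine ⟨fun h => ?_, fun h => ?_⟩
    · obtain ⟨a, b, c, d, e⟩ := cen _ ((hs n).symm ▸ h)
      simp [e, tp]
    · obtain ⟨b, c, d, e, -, e1, -⟩ := nrm _ ((hs n).symm ▸ n.2)
      obtain rfl : b = 1 := mul_right_cancel₀ (dne _ (ls n) 0) (by rw [← e1, h, one_mul])
      have l1 : Low (φ (s n * u * (s n)⁻¹)) := by simp only [e]; simp [Low, tp]
      have lx : Low (φ (s n * u * (s n)⁻¹ * u⁻¹)) := map_mul φ _ _ ▸ (l1.mul (linv u lu)).1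
      obtain ⟨-, m1, m2⟩ := lx.mul lu
      rw [← map_mul, inv_mul_cancel_right, e, hu] at m1 m2
      have d1 : ∀ i, φ (s n * u * (s n)⁻¹ * u⁻¹) i i = 1 := fun i => by
        have := m1 i
        fin_cases i <;> simpa [tp, -map_mul] using this.symm
      have := reg _ (lx.cube d1 fun i => by
        have := m2 i
        rw [d1] at this
        fin_cases i <;> simpa [tp, -map_mul] using this)
      rw [← hs n, mem_Cen, ← map_mul, ← map_mul, mul_inv_eq_iff_eq_mul.1 (mul_inv_eq_one.1 this)]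
  have hnu : nu (π u) = Nat.card χ.range := by rw [nu, relIndex, hk, index_ker]
  have : Finite χ.range := Finite.of_surjective _ χ.rangeRestrict_surjective
  obtain ⟨⟨_, n, rfl⟩, hn⟩ := IsCyclic.exists_ofOrder_eq_natCard (α := χ.range)
  rw [← hnu, ← orderOf_coe] at hn
  change orderOf (χ n) = _ at hn
  have ho : orderOf (χ (n ^ p)) = nu (π u) := by
    rw [← hn, map_pow]
    exact orderOf_injective (Units.map (frobenius k p).toMonoidHom) (Units.map_injective (frobenius_inj k p)) _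
  have ho' : orderOf (n ^ p) = nu (π u) := Nat.dvd_antisymm (orderOf_dvd_of_pow_eq_one (Subtype.ext (by
    rw [← pow_mul, mul_comm, pow_mul]
    exact c1 _ (show n ^ nu (π u) ∈ (Cen (π u)).subgroupOf _ by
      rw [hk, MonoidHom.mem_ker, map_pow, ← hn, pow_orderOf_eq_one])))) (ho ▸ orderOf_map_dvd χ _)
  generalize n ^ p = τ at ho ho'
  refine ⟨c1, τ, τ.2, by rw [orderOf_coe, ho'], fun h4 => ?_⟩
  obtain ⟨a, -, -, -, lt, t1, t2, t3⟩ := nrm _ ((hs τ).symm ▸ τ.2)
  have m0 := dne _ lt 0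
  have ha : (χ τ : k) = a := by
    change _ / _ = _
    rw [t1, mul_div_cancel_right₀ _ m0]
  have dg : ∀ i : Fin 4, φ (s τ) i i = a ^ i.1 * φ (s τ) 0 0 := fun i => by
    fin_cases i <;> simp [t1, t2, t3] <;> ring
  refine ⟨fun y hy => ?_, fun n j e1 e2 e3 => ?_⟩
  · obtain ⟨y, rfl⟩ : ∃ y', π y' = y := ⟨_, hs y⟩
    refine nrm' y (lt.of_comm (fun i j hij e => hij (Fin.ext ?_)) ?_)
    · rw [dg i, dg j, mul_left_inj' m0, ← ha, ← Units.val_pow_eq_pow_val, ← Units.val_pow_eq_pow_val,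
        Units.val_inj] at e
      exact pow_injOn_Iio_orderOf (ho ▸ i.2.trans_le h4) (ho ▸ j.2.trans_le h4) e
    have key : ∀ a b, (φ a = φ b ∨ φ a = -φ b) → ∀ X, Commute (φ b) X → Commute (φ a) X := by
      rintro a b (e | e) X h <;> rw [e]
      exacts [h, h.neg_left]
    refine ((pm (y * s τ * y⁻¹) (s τ) (by simp [hs, ← mem_Cen.1 hy])).elim id fun e => ?_) |> fun e => by
      rw [← map_mul, ← map_mul, mul_inv_eq_iff_eq_mul.1 (inj e)]
    obtain ⟨r, hr⟩ := sgn y (s τ) (nu (π u)) (by rw [map_pow, hs, ← ho', ← orderOf_coe, pow_orderOf_eq_one]) e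
    have ot : ∀ i, 0 < i → i < nu (π u) → τ.1 ^ i ≠ 1 := fun i h1 h2 =>
      pow_ne_one_of_lt_orderOf h1.ne' (by rwa [orderOf_coe, ho'])
    obtain ⟨m, -, m1, m2⟩ := hd (τ.1 ^ r) ⟨by rw [← pow_add, ← hr, ← ho', ← orderOf_coe, pow_orderOf_eq_one],
      ot r (by omega) (by omega)⟩
    have h1 : τ.1 ∈ Cen (τ.1 ^ r) := mem_Cen.2 (pow_mul_comm' _ _)
    have h3 : π y ∈ Cen (τ.1 ^ r) := mem_Cen.2 (Commute.pow_left (mem_Cen.1 hy) r)
    have h5 : τ.1 ∈ zpowers m := by_contra fun h => ot 2 (by simp) (by omega) (by rw [sq, m1 _ h1 h])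
    have h6 : π y ∈ zpowers m := by_contra fun h => ot 2 (by simp) (by omega) (by
      have := m1 _ (mul_mem h3 h1) fun h' => h (by simpa using mul_mem h' (inv_mem h5))
      rw [mul_assoc, ← mul_assoc τ.1, mem_Cen.1 hy, mul_assoc, ← mul_assoc, m1 _ h3 h, one_mul] at this
      rw [sq, this])
    obtain ⟨i, hi⟩ := h5
    obtain ⟨j, hj⟩ := h6
    have := key _ _ (pm y (s m ^ j) (by simp [hs, ← hj])) _ (key _ _ (pm (s τ) (s m ^ i) (by simp [hs, ← hi])) _
      (((Commute.refl (s m)).zpow_zpow i j).map φ)).symm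
    rw [map_mul, map_mul, this, mul_assoc, ← map_mul, mul_inv_cancel, map_one, mul_one]
  · obtain ⟨n, rfl⟩ : ∃ y', π y' = n := ⟨_, hs n⟩
    obtain ⟨l1, l2⟩ := lpow _ lt j
    have ev : φ (s τ ^ j) *ᵥ Pi.single 3 1 = φ (s τ) 3 3 ^ j • (Pi.single 3 1 : Fin 4 → k) := by
      ext i
      fin_cases i <;> simp [l1.2.2.1, l1.2.2.2.2, l2, -map_pow]
    have x0 : φ n⁻¹ *ᵥ Pi.single 3 1 ≠ 0 := fun e => by
      have := congrArg (φ n *ᵥ ·) e
      simp only [mulVec_mulVec, ← map_mul, mul_inv_cancel, map_one, one_mulVec] at this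
      simpa using this
    obtain ⟨c, hc, e⟩ : ∃ c : k, c ^ 2 = (φ (s τ) 3 3 ^ j) ^ 2 ∧
        φ (s τ) *ᵥ φ n⁻¹ *ᵥ Pi.single 3 1 = c • φ n⁻¹ *ᵥ Pi.single 3 1 := by
      rw [mulVec_mulVec, ← map_mul, show s τ * n⁻¹ = n⁻¹ * (n * s τ * n⁻¹) by group, map_mul, ← mulVec_mulVec]
      rcases pm (n * s τ * n⁻¹) (s τ ^ j) (by simp [hs, e1]) with e | e <;> rw [e]
      exacts [⟨_, rfl, by rw [ev, mulVec_smul]⟩, ⟨_, neg_sq _, by rw [neg_mulVec, ev, ← neg_smul, mulVec_smul]⟩]
    obtain ⟨i, rfl⟩ := lt.eig x0 e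
    have e4 := pair _ lt
    rw [dg 3] at e4
    have e5 : a ^ (3 * j) * a ^ 3 = a ^ (2 * i.1) := by
      rw [dg i, dg 3, ← pow_mul, mul_comm j, pow_mul] at hc
      simp only [show (3 : Fin 4).1 = 3 from rfl] at hc e4
      rw [show (a ^ 3 * φ (s τ) 0 0) ^ 2 = a ^ 3 by linear_combination a ^ 3 * e4, ← pow_mul] at hc
      rw [← hc]
      linear_combination a ^ (2 * i.1) * e4
    rw [← ha] at e5
    norm_cast at e5
    rw [← ho] at h4 e2 ⊢
    refine five_of h4 e2 (by rw [← map_pow, ← map_inv]; exact congrArg χ (Subtype.ext e3)) ?_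
    fin_cases i
    · exact .inl (by simpa using e5)
    · exact .inr (.inl (mul_right_cancel (b := χ τ ^ 2) (by simpa [pow_succ', mul_assoc] using e5)))
    · exact .inr (.inr (.inl (mul_right_cancel (e5.trans (pow_succ' _ _)))))
    · exact .inr (.inr (.inr (mul_right_cancel (e5.trans (pow_add _ 3 3)))))

variable {V W : Type*} [AddCommGroup V] [Module k V] [FiniteDimensional k V]
  [AddCommGroup W] [Module k W] [FiniteDimensional k W]
  {B : V →ₗ[k] V →ₗ[k] k} {Q : QuadraticForm k W} {ι : W →ₗ[k] End k V}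
  {G : Type u} [Group G] {P : Subgroup (End k V)ˣ} {π : P →* G} {p : ℕ}

theorem unNu [Fact p.Prime] [CharP k p] (h : St B Q ι P π) (hβ : Beta P) (hd : Dih G) : UnNu p G := by
  intro u u1 up
  have c := h.cl
  have := h.fin
  have reg : ∀ g : P, (g.1.1 - 1) ^ 3 = 0 → g = 1 := fun g e => by
    rcases hβ.2 g g.2 2 (T2_of_cube c (h.sp g g.2) e) with e1 | e1 | e1
    · exact Subtype.ext e1
    · obtain ⟨v, hv⟩ := c.exists_ne
      exact absurd (Un.eig ⟨3, e⟩ hv (c := -1) (by simp [e1])) fun e => c.two (by linear_combination -e)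
    · exact absurd e1 c.two
  obtain ⟨u0, rfl⟩ := h.surj u
  obtain ⟨u, hu, up'⟩ : ∃ u : P, π u = π u0 ∧ u.1 ^ p ^ 1 = 1 := by
    refine ⟨u0 ^ (p + 1), by rw [map_pow, pow_succ, up, one_mul], ?_⟩
    rw [pow_one, coe_pow, ← pow_mul, mul_comm, pow_mul]
    rcases (h.ker (u0 ^ p)).1 (by rw [map_pow, up]) with e | e <;> rw [← coe_pow, e]
    exacts [one_pow _, (p_odd (p := p) c).add_one.neg_one_pow]
  rw [← hu] at u1 ⊢
  have h4 := (un_of_pow c up').four c (h.sp u u.2)
  have h3 : (u.1.1 - 1) ^ 3 ≠ 0 := fun e => u1 (by rw [reg u e, map_one])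
  have hp : 4 ≤ p := (three_le c).lt_of_ne (by
    rintro rfl
    exact h3 (by simpa [show u.1 ^ 3 = 1 by simpa using up'] using sub_pow_p (p := 3) c u.1 1))
  obtain ⟨N, hN⟩ : ∃ N, N = u.1.1 - 1 := ⟨_, rfl⟩
  rw [← hN] at h3 h4
  obtain ⟨w, hw⟩ : ∃ w, N (N (N w)) ≠ 0 := by
    by_contra! H
    exact h3 (LinearMap.ext fun v => by simpa [pow_succ] using H v)
  have n4 : ∀ v, N (N (N (N v))) = 0 := fun v => by simpa [pow_succ] using LinearMap.congr_fun h4 v
  have li : LinearIndependent k ![w, N w, N (N w), N (N (N w))] := by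
    rw [Fintype.linearIndependent_iff]
    intro g k0
    have k1 := congrArg N k0
    have k2 := congrArg N k1
    have k3 := congrArg N k2
    simp [Fin.sum_univ_four, n4, hw] at k3
    simp [Fin.sum_univ_four, n4, hw, k3] at k2
    simp [Fin.sum_univ_four, n4, hw, k3, k2] at k1
    simp [Fin.sum_univ_four, n4, hw, k3, k2, k1] at k0
    intro i
    fin_cases i <;> assumption
  obtain ⟨b, hb⟩ : ∃ b : Basis (Fin 4) k V, ∀ i, b i = ![w, N w, N (N w), N (N (N w))] i :=
    ⟨basisOfLinearIndependentOfCardEqFinrank li (by simp [c.dimV]), fun i => by simp⟩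
  let M := LinearMap.toMatrixAlgEquiv b
  have hM : ∀ (X : End k V) j, X (b j) = ∑ i, M X i j • b i := fun X j => by
    simp [M, LinearMap.toMatrixAlgEquiv_apply]
  refine unNu_abs c.two hp h.surj (M.toMulEquiv.toMonoidHom.comp ((Units.coeHom _).comp P.subtype))
    (M.injective.comp (Units.val_injective.comp Subtype.val_injective)) (fun g => ?_) (fun g a e => ?_)
    (fun g e => reg g (M.injective (by simpa using e))) ?_ (fun g l => ?_) hd
  · rw [h.ker, Units.ext_iff, Units.ext_iff, ← M.injective.eq_iff, ← M.injective.eq_iff]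
    simp
  · exact (h.ker g).2 (pm_of_scal c (h.sp g g.2) (c := a) (M.injective (by simpa using e)))
  · change M u.1.1 = _
    rw [eq_add_of_sub_eq hN.symm, ← M.apply_symm_apply (tp 1 1 0 0)]
    refine congrArg M (b.ext fun j => ?_)
    rw [hM (M.symm _), M.apply_symm_apply]
    fin_cases j <;> simp [hb, tp, Fin.sum_univ_four, n4, add_comm]
  · have z : ∀ v, B (N (N (N w))) (N v) = 0 := fun v => by
      have : u.1.1 (N (N (N w))) = N (N (N w)) := by rw [eq_add_of_sub_eq hN.symm]; simp [n4]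
      nth_rw 4 [hN]
      rw [LinearMap.sub_apply, map_sub]
      nth_rw 1 [← this]
      rw [h.sp u u.2]; simp
    have z0 : B (N (N (N w))) w ≠ 0 := fun e => hw (c.symp.nd' _ fun x => by
      rw [← b.sum_repr x]; simp [Fin.sum_univ_four, hb, z, e])
    have e := h.sp g g.2 (b 3) (b 0)
    obtain ⟨-, -, l1, -, l2, l3⟩ := l
    change M g.1.1 _ _ = _ at l1 l2 l3
    rw [hM, hM] at e
    simp [Fin.sum_univ_four, hb, z, l1, l2, l3] at e
    exact mul_right_cancel₀ z0 (by change M g.1.1 0 0 * M g.1.1 3 3 * _ = _; linear_combination e)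

end Cfsg.Agent.H5.S4
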