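import Cfsg.Agent.H9.Sp.Cl1

/-! Involutions and elements with a large fixed space in `Ω₅(q) = PSp₄(q)`. -/

set_option autoImplicit false
set_option linter.unusedSimpArgs false
set_option linter.unusedSectionVars false
set_option linter.unusedVariables false

namespace Cfsg.Agent.H5.S4

open Module Cfsg.Agent.H6 Cfsg.Agent.H9.Sp

attribute [-simp] LinearEquiv.coe_inv Submodule.mem_map_equiv

variable {F V W : Type*} [Field F] [AddCommGroup V] [Module F V] [FiniteDimensional F V]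
  [AddCommGroup W] [Module F W] [FiniteDimensional F W]
  {B : V →ₗ[F] V →ₗ[F] F} {Q : QuadraticForm F W} {ι : W →ₗ[F] End F V}

/-- the fixed space -/
def fix (k : W ≃ₗ[F] W) : Submodule F W := LinearMap.ker ((k : W →ₗ[F] W) - LinearMap.id)

theorem mem_fix {k : W ≃ₗ[F] W} {x : W} : x ∈ fix k ↔ k x = x := by simp [fix, sub_eq_zero]

/-- the fixed space has dimension at least three -/
def Three (k : W ≃ₗ[F] W) : Prop := 3 ≤ finrank F (fix k)

theorem Three.conj {k : W ≃ₗ[F] W} (h : Three k) (g : W ≃ₗ[F] W) : Three (g * k * g⁻¹) := by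
  refine h.trans ((LinearEquiv.finrank_map_eq g _).ge.trans (Submodule.finrank_mono ?_))
  rintro _ ⟨x, hx, rfl⟩
  rw [mem_fix]
  simp [mem_fix.1 hx]

theorem Three.common (hW : finrank F W = 5) {k k' : W ≃ₗ[F] W} (h : Three k) (h' : Three k') :
    ∃ x, x ≠ 0 ∧ k x = x ∧ k' x = x := by
  have h1 := Submodule.finrank_sup_add_finrank_inf_eq (fix k) (fix k')
  have h2 := Submodule.finrank_le (fix k ⊔ fix k')
  unfold Three at h h'
  obtain ⟨x, hx, h0⟩ := Submodule.exists_mem_ne_zero_of_ne_bot (p := fix k ⊓ fix k') (by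
    intro e; rw [e, finrank_bot] at h1; omega)
  exact ⟨x, h0, mem_fix.1 hx.1, mem_fix.1 hx.2⟩

/-- `k` lifts to an involution -/
def Plus (B : V →ₗ[F] V →ₗ[F] F) (ι : W →ₗ[F] End F V) (k : W ≃ₗ[F] W) : Prop :=
  ∃ g ∈ Sp B, Rel ι g k ∧ g * g = 1

theorem Plus.conj {k g : W ≃ₗ[F] W} (h : Plus B ι k) (hg : g ∈ Img ι (Sp B)) : Plus B ι (g * k * g⁻¹) := by
  obtain ⟨a, a1, a2, a3⟩ := h
  obtain ⟨b, b1, b2⟩ := hg
  exact ⟨b * a * b⁻¹, mul_mem (mul_mem b1 a1) (inv_mem b1), (b2.mul a2).mul b2.inv, by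
    rw [conj_mul, a3]; simp⟩

variable (h : Cl B Q ι)
include h

theorem rel_unique {g : V ≃ₗ[F] V} {k k' : W ≃ₗ[F] W} (r : Rel ι g k) (r' : Rel ι g k') : k = k' :=
  LinearEquiv.ext fun x => h.inj fun v => by
    obtain ⟨v, rfl⟩ := g.surjective v
    rw [← r, ← r']

theorem eq_one_of_scalar {g : V ≃ₗ[F] V} {k : W ≃ₗ[F] W} (r : Rel ι g k) {c : F} (hc : ∀ v, g v = c • v) :
    k = 1 := rel_unique h r fun x v => by simp [hc]

theorem lift_eq {g g' : V ≃ₗ[F] V} {k : W ≃ₗ[F] W} (hg : g ∈ Sp B) (hg' : g' ∈ Sp B) (r : Rel ι g k)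
    (r' : Rel ι g' k) : g' = g ∨ g' = g * LinearEquiv.neg F := by
  have := h.ker (mul_mem (inv_mem hg) hg') (by simpa using r.inv.mul r')
  simpa [inv_mul_eq_iff_eq_mul] using this

theorem refl_anti {b : W} (hb : Q b ≠ 0) (x : W) (v : V) : ι b (ι x v) = - ι (Orth.refl Q b x) (ι b v) := by
  rw [h.anti, Orth.refl_apply, map_sub, map_smul, LinearMap.sub_apply, LinearMap.smul_apply, h.sq, smul_smul,
    mul_assoc, mul_comm _ (Q b), inv_mul_cancel_left₀ hb, neg_sub]

theorem lift_refl {a b : W} (ha : Q a ≠ 0) (hab : Q a = Q b) :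
    Orth.refl Q a * Orth.refl Q b ∈ Img ι (Sp B) := by
  obtain ⟨g, hg, e⟩ := exists_Sp h.symp ((Q a)⁻¹ • (ι a * ι b)) fun x y => by
    simp only [LinearMap.smul_apply, End.mul_apply, map_smul, smul_eq_mul, h.adj, h.sq, ← hab]
    field_simp
  refine ⟨g, hg, fun x v => ?_⟩
  simp only [e, LinearMap.smul_apply, End.mul_apply, map_smul, refl_anti h (hab ▸ ha) x, map_neg,
    refl_anti h ha (Orth.refl Q b x), neg_neg, Orth.mul_app]

theorem four_ne : (4 : F) ≠ 0 := by
  have := mul_ne_zero h.two h.two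
  norm_num at this; exact this

theorem eq_zero_of_scalar {x : W} {c : F} (e : ∀ v, ι x v = c • v) : x = 0 := by
  have h1 := h.tr x
  rw [show ι x = c • LinearMap.id from LinearMap.ext e, map_smul, LinearMap.trace_id, h.dimV] at h1
  have h2 : c = 0 := by simpa [four_ne h] using h1
  exact h.inj fun v => by simp [e, h2]

theorem sa_eq {g : V ≃ₗ[F] V} {k : W ≃ₗ[F] W} (hg : g ∈ Sp B) (r : Rel ι g k) (h2 : g * g = 1)
    (hk : k ≠ 1) : ∃ x, ∀ v, g v = ι x v := by
  have hi : g⁻¹ = g := inv_eq_of_mul_eq_one_right h2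
  obtain ⟨c, hc⟩ : ∃ c, c = LinearMap.trace F V g / 4 := ⟨_, rfl⟩
  obtain ⟨x, hx⟩ := h.surj ((g : V →ₗ[F] V) - c • LinearMap.id) (fun u v => by
    simp [Sp_left hg, hi]) (by
    rw [map_sub, map_smul, LinearMap.trace_id, h.dimV, hc]
    have := four_ne h
    simp only [Nat.cast_ofNat, smul_eq_mul]
    field_simp; ring)
  have e : ∀ v, g v = ι x v + c • v := fun v => by simp [hx]
  have e2 : ∀ v, ι ((2 * c) • x) v = (1 - Q x - c * c) • v := fun v => by
    have : g (g v) = v := by rw [← LinearEquiv.mul_apply, h2]; rfl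
    simp only [e, map_add, map_smul, h.sq, LinearMap.smul_apply] at this ⊢
    linear_combination (norm := module) this
  rcases smul_eq_zero.1 (eq_zero_of_scalar h e2) with h0 | h0
  · exact ⟨x, fun v => by simp [e, (mul_eq_zero.1 h0).resolve_left h.two]⟩
  · exact absurd (eq_one_of_scalar h r (c := c) fun v => by simp [e, h0]) hk

theorem neg_sq (g : V ≃ₗ[F] V) : g * LinearEquiv.neg F * (g * LinearEquiv.neg F) = g * g := by
  ext v; simp

theorem not_plus {k k' : W ≃ₗ[F] W} (p : Plus B ι k) (p' : Plus B ι k') (p'' : Plus B ι (k * k'))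
    (h1 : k ≠ 1) (h2 : k' ≠ 1) (h3 : k * k' ≠ 1) : False := by
  obtain ⟨a, a1, a2, a3⟩ := p
  obtain ⟨b, b1, b2, b3⟩ := p'
  obtain ⟨c, c1, c2, c3⟩ := p''
  have h4 : a * b * (a * b) = 1 := by
    rcases lift_eq h c1 (mul_mem a1 b1) c2 (a2.mul b2) with e | e <;> rw [e]
    exacts [c3, (neg_sq h c).trans c3]
  have h5 : a * b = b * a := by
    rw [← inv_eq_of_mul_eq_one_right h4, mul_inv_rev, inv_eq_of_mul_eq_one_right a3,
      inv_eq_of_mul_eq_one_right b3]
  obtain ⟨x, hx⟩ := sa_eq h a1 a2 a3 h1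
  obtain ⟨y, hy⟩ := sa_eq h b1 b2 b3 h2
  refine h3 (eq_one_of_scalar h (a2.mul b2) (c := 2⁻¹ * Orth.B Q x y) fun v => ?_)
  have e1 := h.anti x y v
  have e2 : a (b v) = b (a v) := by rw [← LinearEquiv.mul_apply, h5]; rfl
  simp only [hx, hy, LinearEquiv.mul_apply] at e2 ⊢
  have e3 : (2⁻¹ * 2 : F) = 1 := inv_mul_cancel₀ h.two
  rw [mul_smul, ← one_smul F (ι x (ι y v)), ← e3, mul_smul]
  congr 1
  linear_combination (norm := module) e1 + e2

theorem minus {k : W ≃ₗ[F] W} (hk : k ∈ Img ι (Sp B)) (h2 : k * k = 1) (p : ¬ Plus B ι k) :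
    ∃ g ∈ Sp B, Rel ι g k ∧ ∀ v, g (g v) = - v := by
  obtain ⟨g, hg, r⟩ := hk
  refine ⟨g, hg, r, fun v => ?_⟩
  have := (h.ker (mul_mem hg hg) (h2 ▸ r.mul r)).resolve_left fun e => p ⟨g, hg, r, e⟩
  rw [← LinearEquiv.mul_apply, this]; rfl

theorem minus_data {g : V ≃ₗ[F] V} {k : W ≃ₗ[F] W} (hg : g ∈ Sp B) (r : Rel ι g k)
    (h2 : ∀ v, g (g v) = - v) : ∃ x y, Q x ≠ 0 ∧ k x = -x ∧ k y = -y ∧ (∀ v, ι y v = g (ι x v)) ∧
      ∀ w, Orth.B Q x w = 0 → Orth.B Q y w = 0 → k w = w := by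
  have hO := h.rel_O r
  have hi : ∀ v, g⁻¹ v = - g v := fun v => g.injective (by simp [h2])
  have kk : ∀ w, k (k w) = w := fun w => h.inj fun v => by
    have := (r.mul r) w v
    simp only [LinearEquiv.mul_apply, h2, map_neg, neg_inj] at this
    exact this.symm
  have hk : k ≠ 1 := by
    rintro rfl
    rcases h.ker hg r with e | e <;> obtain ⟨v, hv⟩ := h.exists_ne <;> have := h2 v <;>
      simp only [e, LinearEquiv.coe_one, id, LinearEquiv.neg_apply, neg_neg] at this <;>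
      exact hv (by
        have h3 : (2 : F) • v = 0 := by rw [two_smul]; nth_rw 2 [this]; simp
        exact (smul_eq_zero.1 h3).resolve_left h.two)
  obtain ⟨x, hx, hx0⟩ : ∃ x, k x = -x ∧ Q x ≠ 0 := by
    by_contra! h0
    refine hk (LinearEquiv.ext fun w => (sub_eq_zero.1 (h.nd _ fun u => ?_)).symm)
    have n1 : ∀ w, k (w - k w) = -(w - k w) := fun w => by simp [kk]
    have e1 := h0 _ (n1 w)
    have e2 := h0 _ (n1 u)
    have e3 := h0 (u - k u + (w - k w)) (by rw [map_add, n1, n1, neg_add])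
    rw [Orth.Q_add, e1, e2] at e3
    have e4 := Orth.O_B hO u (w - k w)
    rw [n1, map_neg] at e4
    simp only [map_sub (Orth.B Q), LinearMap.sub_apply] at e3
    have : 2 * Orth.B Q u (w - k w) = 0 := by linear_combination e3 - e4
    exact (mul_eq_zero.1 this).resolve_left h.two
  have ax : ∀ v, g (ι x v) = - ι x (g v) := fun v => by rw [r, hx]; simp
  obtain ⟨y, hy⟩ := h.surj ((g : V →ₗ[F] V) * ι x) (fun u v => by
    simp [Sp_left hg, h.adj, hi, ax]) (by
    have e1 : (g : V →ₗ[F] V) * ι x = - (ι x * g) := LinearMap.ext fun v => by simp [ax]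
    have e2 := congrArg (LinearMap.trace F V) e1
    rw [map_neg, LinearMap.trace_mul_comm F (ι x)] at e2
    have : 2 * LinearMap.trace F V ((g : V →ₗ[F] V) * ι x) = 0 := by linear_combination e2
    exact (mul_eq_zero.1 this).resolve_left h.two)
  have ey : ∀ v, ι y v = g (ι x v) := fun v => by simp [hy]
  refine ⟨x, y, hx0, hx, h.inj fun v => ?_, ey, fun w w1 w2 => h.inj fun v => ?_⟩
  · obtain ⟨v, rfl⟩ := g.surjective v
    rw [← r]
    simp [ey, h2, ax]
  · obtain ⟨v, rfl⟩ := g.surjective v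
    rw [← r]
    have e1 : ∀ v, ι x (ι w v) = - ι w (ι x v) := fun v => by simp [h.anti x w, w1]
    have e2 : ∀ v, ι y (ι w v) = - ι w (ι y v) := fun v => by simp [h.anti y w, w2]
    have e3 := e2 (ι x v)
    rw [ey, ey, ← neg_neg (ι w (ι x v)), ← e1, map_neg, map_neg, h.sq, h.sq, map_smul, map_smul, map_smul,
      neg_inj] at e3
    exact smul_right_injective V hx0 e3

theorem three_of_minus {k : W ≃ₗ[F] W} (hk : k ∈ Img ι (Sp B)) (h2 : k * k = 1) (p : ¬ Plus B ι k) :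
    Three k := by
  obtain ⟨g, hg, r, e⟩ := minus h hk h2 p
  obtain ⟨x, y, -, -, -, -, hw⟩ := minus_data h hg r e
  have h1 := Orth.finrank_perp_ge (Q := Q) (Submodule.span F {x, y})
  have h3 := Orth.finrank_span_pair_le (F := F) x y
  have h4 : Orth.perp Q (Submodule.span F {x, y}) ≤ fix k := fun w hw' =>
    mem_fix.2 (hw w (Orth.mem_perp_span.1 hw' x (by simp)) (Orth.mem_perp_span.1 hw' y (by simp)))
  have h5 := Submodule.finrank_mono h4
  have := h.dim
  unfold Three; omega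

theorem three_mul {s s' : W ≃ₗ[F] W} (hs : s ∈ Orth.O Q) (hs' : s' ∈ Orth.O Q) (t : Three s) (t' : Three s')
    {y : W} (hy : y ≠ 0) (e : s y = -y) (e' : s' y = -y) : Three (s * s') := by
  have key : ∀ s ∈ Orth.O Q, s y = -y → fix s ≤ Orth.perp Q (F ∙ y) := fun s hs e w hw => by
    rw [Orth.mem_perp_span_singleton]
    have := Orth.O_B hs y w
    rw [e, mem_fix.1 hw, map_neg, LinearMap.neg_apply] at this
    have h2 : 2 * Orth.B Q y w = 0 := by linear_combination -this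
    exact (mul_eq_zero.1 h2).resolve_left h.two
  have h1 := Submodule.finrank_sup_add_finrank_inf_eq (fix s) (fix s')
  have h2 := Submodule.finrank_mono (sup_le (key s hs e) (key s' hs' e'))
  have h3 := h.nd.finrank_perp (F ∙ y)
  rw [finrank_span_singleton hy, h.dim] at h3
  have h4 : fix s ⊓ fix s' < fix (s * s') := by
    refine lt_of_le_of_ne (fun w hw => mem_fix.2 (by simp [mem_fix.1 hw.1, mem_fix.1 hw.2])) fun e2 => ?_
    have h5 : y ∈ fix s ⊓ fix s' := e2 ▸ mem_fix.2 (by simp [e, e'])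
    have h6 := mem_fix.1 h5.1
    rw [e] at h6
    have h7 : (2 : F) • y = 0 := by rw [two_smul]; nth_rw 1 [← h6]; simp
    exact hy ((smul_eq_zero.1 h7).resolve_left h.two)
  have h5 := Submodule.finrank_lt_finrank_of_lt h4
  unfold Three at *; omega

theorem exists_root {z t t' : W ≃ₗ[F] W} (hz : z ∈ Img ι (Sp B)) (ht : t ∈ Img ι (Sp B))
    (ht' : t' ∈ Img ι (Sp B)) (z2 : z * z = 1) (t2 : t * t = 1) (t2' : t' * t' = 1) (pz : ¬ Plus B ι z)
    (pt : ¬ Plus B ι t) (pt' : ¬ Plus B ι t') (pzt : ¬ Plus B ι (z * t')) (c1 : t' * z = z * t')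
    (c2 : t * z = z * t) (c3 : t' * t = t * t' * z) (n3 : ¬ Three (t' * t)) :
    ∃ r, r ≠ 0 ∧ z r = r ∧ t r = r ∧ t' r = -r := by
  obtain ⟨Z, hZ, rZ, eZ⟩ := minus h hz z2 pz
  obtain ⟨A, hA, rA, eA⟩ := minus h ht' t2' pt'
  obtain ⟨x, y, hx0, hx, hy, ey, -⟩ := minus_data h hA rA eA
  obtain ⟨u, hu, hu0⟩ : ∃ u, t' u = -u ∧ u + z u ≠ 0 := by
    by_contra! h0
    have e1 := eq_neg_of_add_eq_zero_right (h0 x hx)
    have e2 := eq_neg_of_add_eq_zero_right (h0 y hy)
    have e3 : ∀ v, Z (A v) = A (Z v) := fun v => by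
      have f1 := rZ y (ι x v)
      have f2 := rZ x (ι x v)
      rw [e2, map_neg, LinearMap.neg_apply, ey, ey, h.sq] at f1
      rw [e1, map_neg, LinearMap.neg_apply, h.sq] at f2
      rw [← map_neg, ← f2] at f1
      simp only [map_smul] at f1
      exact smul_right_injective V hx0 f1
    refine pzt ⟨Z * A, mul_mem hZ hA, rZ.mul rA, LinearEquiv.ext fun v => ?_⟩
    simp [← e3, eZ, eA]
  have zz : ∀ w, z (z w) = w := fun w => by rw [← LinearEquiv.mul_apply, z2]; rfl
  have tt : ∀ w, t (t w) = w := fun w => by rw [← LinearEquiv.mul_apply, t2]; rfl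
  have r1 : z (u + z u) = u + z u := by rw [map_add, zz, add_comm]
  have r2 : t' (u + z u) = -(u + z u) := by
    rw [map_add, ← LinearEquiv.mul_apply, c1, LinearEquiv.mul_apply, hu, map_neg, neg_add]
  refine ⟨_, hu0, r1, ?_, r2⟩
  set r := u + z u
  by_contra hne
  refine n3 (three_mul h (h.rel_O rA) (h.rel_O ht.choose_spec.2) (three_of_minus h ht' t2' pt')
    (three_of_minus h ht t2 pt) (y := r - t r) (fun e => hne (sub_eq_zero.1 e).symm) ?_ ?_)
  · rw [map_sub, ← LinearEquiv.mul_apply t' t, c3]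
    simp only [LinearEquiv.mul_apply, r1, r2, map_neg]
    abel
  · rw [map_sub, tt, neg_sub]

end Cfsg.Agent.H5.S4
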