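import Cfsg.Agent.H5.S4.W1

/-! Simplices and root systems in the five dimensional orthogonal space. -/

set_option autoImplicit false
set_option linter.unusedSimpArgs false
set_option linter.unusedSectionVars false
set_option linter.unusedVariables false

namespace Cfsg.Agent.H5.S4

open Module Cfsg.Agent.H6 Cfsg.Agent.H9.Sp Equiv Finset

attribute [-simp] LinearEquiv.coe_inv Submodule.mem_map_equiv

variable {F V W : Type*} [Field F] [AddCommGroup V] [Module F V] [FiniteDimensional F V]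
  [AddCommGroup W] [Module F W] [FiniteDimensional F W]
  {B : V →ₗ[F] V →ₗ[F] F} {Q : QuadraticForm F W} {ι : W →ₗ[F] End F V}

/-- the images of a maximal subgroup and of its residual core in the orthogonal group -/
structure Ctx (B : V →ₗ[F] V →ₗ[F] F) (Q : QuadraticForm F W) (ι : W →ₗ[F] End F V)
    (H P : Subgroup (W ≃ₗ[F] W)) : Prop where
  cl : Cl B Q ι
  le : P ≤ H
  leS : H ≤ Img ι (Sp B)
  norm : ∀ g ∈ H, ∀ k ∈ P, g * k * g⁻¹ ∈ P
  nofix : ∀ x, (∀ k ∈ P, k x = x) → x = 0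
  nots : ∀ S : Set W, S.Finite → (∀ k ∈ P, ∀ x ∈ S, k x ∈ S) → (∀ x ∈ S, ∀ y ∈ S, Orth.B Q x y = 0) →
    ∀ x ∈ S, x = 0
  cent : ∀ g ∈ H, (∀ k ∈ P, g * k = k * g) → g = 1
  max : ∀ M, H ≤ M → M ⊓ Img ι (Sp B) ≤ H ∨ Img ι (Sp B) ≤ M

/-- the stabiliser of a set -/
def stab (S : Set W) : Subgroup (W ≃ₗ[F] W) where
  carrier := {k | ∀ x, k x ∈ S ↔ x ∈ S}
  one_mem' x := Iff.rfl
  mul_mem' {a b} ha hb x := (ha _).trans (hb x)
  inv_mem' {a} ha x := by rw [← ha]; simp

theorem mem_stab {S : Set W} {k : W ≃ₗ[F] W} (h1 : ∀ x ∈ S, k x ∈ S) (h2 : ∀ x ∈ S, k⁻¹ x ∈ S) :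
    k ∈ stab S := fun x => ⟨fun h => by simpa using h2 _ h, h1 x⟩

/-- `k` permutes the family `e` -/
def Act {I : Type*} (k : W ≃ₗ[F] W) (e : I → W) (α : Perm I) : Prop := ∀ i, k (e i) = e (α i)

theorem Act.one {I : Type*} (e : I → W) : Act (1 : W ≃ₗ[F] W) e 1 := fun _ => rfl

theorem Act.mul {I : Type*} {k k' : W ≃ₗ[F] W} {e : I → W} {α α' : Perm I} (h : Act k e α) (h' : Act k' e α') :
    Act (k * k') e (α * α') := fun i => by simp [h' i, h (α' i)]

theorem Act.inv {I : Type*} {k : W ≃ₗ[F] W} {e : I → W} {α : Perm I} (h : Act k e α) : Act k⁻¹ e α⁻¹ :=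
  fun i => k.injective (by rw [h (α⁻¹ i), ← Orth.mul_app, mul_inv_cancel]; simp)

theorem Act.pow {I : Type*} {k : W ≃ₗ[F] W} {e : I → W} {α : Perm I} (h : Act k e α) (n : ℕ) :
    Act (k ^ n) e (α ^ n) := by
  induction n with
  | zero => exact Act.one e
  | succ n ih => rw [pow_succ, pow_succ]; exact ih.mul h

theorem five_cycle {α : Perm (Fin 6)} (h5 : α ^ 5 = 1) (h1 : α ≠ 1) :
    ∃ j, ∀ a b, a ≠ j → b ≠ j → ∃ n : ℕ, (α ^ n) a = b := by
  haveI : Fact (Nat.Prime 5) := ⟨Nat.prime_five⟩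
  have ho : orderOf α = 5 := orderOf_eq_prime h5 h1
  have hc := Perm.isCycle_of_prime_order' (σ := α) (ho ▸ Nat.prime_five) (by rw [ho]; simp)
  have hs : α.supportᶜ.card = 1 := by rw [card_compl, ← hc.orderOf, ho]; simp
  obtain ⟨j, hj⟩ := card_eq_one.1 hs
  have key : ∀ a, a ≠ j → α a ≠ a := fun a ha e => ha (by
    rw [← mem_singleton, ← hj]; simpa using e)
  exact ⟨j, fun a b ha hb => hc.exists_pow_eq (key a ha) (key b hb)⟩

theorem Q_eq (h2 : (2 : F) ≠ 0) {x : W} {t : F} (e : Orth.B Q x x = 2 * t) : Q x = t :=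
  mul_left_cancel₀ h2 (by rw [← Orth.B_self, e])

/-- six vectors forming a regular simplex -/
structure Sx (Q : QuadraticForm F W) (e : Fin 6 → W) (c : F) : Prop where
  gram : ∀ i j, Orth.B Q (e i) (e j) = c - if i = j then 6 * c else 0
  six : 6 * c ≠ 0

namespace Sx

variable {e : Fin 6 → W} {c : F} (s : Sx Q e c)
include s

theorem c0 : c ≠ 0 := right_ne_zero_of_mul s.six

theorem inj : Function.Injective e := fun i j h => by
  by_contra hne
  have h1 := s.gram i i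
  rw [show Orth.B Q (e i) (e i) = Orth.B Q (e i) (e j) by rw [← h], s.gram, if_neg hne, if_pos rfl] at h1
  exact s.six (by linear_combination h1)

theorem span (hW : finrank F W = 5) : Submodule.span F (Set.range e) = ⊤ := by
  have hli : LinearIndependent F fun i : Fin 5 => e i.castSucc := by
    rw [Fintype.linearIndependent_iff]
    intro a ha j
    have h1 := congrArg (Orth.B Q (e 5)) ha
    have h2 := congrArg (Orth.B Q (e j.castSucc)) ha
    have h3 : ∀ i : Fin 5, (5 : Fin 6) ≠ i.castSucc := by decide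
    simp only [map_sum, map_smul, s.gram, h3, if_false, sub_zero, smul_eq_mul, map_zero, Fin.castSucc_inj,
      mul_sub, mul_ite, mul_zero, sum_sub_distrib, sum_ite_eq, mem_univ, if_true] at h1 h2
    rw [h1, zero_sub, neg_eq_zero] at h2
    exact (mul_eq_zero.1 h2).resolve_right s.six
  rw [eq_top_iff, ← hli.span_eq_top_of_card_eq_finrank (by simp [hW])]
  exact Submodule.span_mono (by rintro _ ⟨i, rfl⟩; exact ⟨_, rfl⟩)

theorem eq_zero (hW : finrank F W = 5) (hQ : Orth.Nd Q) {w : W} (h : ∀ i, Orth.B Q (e i) w = 0) : w = 0 :=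
  hQ w fun x => Orth.mem_perp.1 (Orth.mem_perp_span.2 (by rintro _ ⟨i, rfl⟩; exact h i)) x
    (s.span hW ▸ Submodule.mem_top)

theorem ext (hW : finrank F W = 5) {k k' : W ≃ₗ[F] W} (h : ∀ i, k (e i) = k' (e i)) : k = k' :=
  LinearEquiv.toLinearMap_injective (LinearMap.ext_on_range (s.span hW) h)

theorem sum (hW : finrank F W = 5) (hQ : Orth.Nd Q) : ∑ i, e i = 0 := s.eq_zero hW hQ fun i => by
  simp [s.gram]

theorem refl (h2 : (2 : F) ≠ 0) {i j : Fin 6} (hij : i ≠ j) : Q (e i - e j) = -(6 * c) ∧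
    Act (Orth.refl Q (e i - e j)) e (swap i j) := by
  have h1 : Q (e i - e j) = -(6 * c) := Q_eq h2 (by simp [s.gram, hij, hij.symm]; ring)
  refine ⟨h1, fun l => ?_⟩
  have := s.c0
  have := left_ne_zero_of_mul s.six
  rw [Orth.refl_apply, h1, map_sub, LinearMap.sub_apply, s.gram, s.gram, swap_apply_def]
  by_cases a : l = i
  · subst a
    simp only [if_true, hij.symm, if_false]
    rw [show (-(6 * c))⁻¹ * (c - 6 * c - (c - 0)) = 1 by field_simp; ring]; simp
  by_cases b : l = j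
  · subst b
    simp only [if_true, hij, a, if_false]
    rw [show (-(6 * c))⁻¹ * (c - 0 - (c - 6 * c)) = -1 by field_simp; ring]; simp
  · simp [a, b, Ne.symm a, Ne.symm b]

end Sx

/-- differences forming a root system of type `A` -/
structure Rt {I : Type*} [DecidableEq I] (Q : QuadraticForm F W) (E : I → W) (c : F) : Prop where
  gram : ∀ i j k l, Orth.B Q (E i - E j) (E k - E l) = (if i = k then c else 0) - (if i = l then c else 0) -
    (if j = k then c else 0) + (if j = l then c else 0)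
  c0 : c ≠ 0

/-- the roots -/
def roots {I : Type*} (E : I → W) : Set W := {x | ∃ i j, i ≠ j ∧ x = E i - E j}

namespace Rt

variable {I : Type*} [DecidableEq I] {E : I → W} {c : F} (s : Rt Q E c)
include s

theorem refl (h2 : (2 : F) ≠ 0) {i j : I} (hij : i ≠ j) : Q (E i - E j) = c ∧
    ∀ k l, Orth.refl Q (E i - E j) (E k - E l) = E (swap i j k) - E (swap i j l) := by
  have h1 : Q (E i - E j) = c := Q_eq h2 (by rw [s.gram]; simp [hij, hij.symm]; ring)
  refine ⟨h1, fun k l => ?_⟩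
  have h3 : ∀ k, E (swap i j k) = E k - (c⁻¹ * ((if i = k then c else 0) - if j = k then c else 0)) •
      (E i - E j) := fun k => by
    have := s.c0
    rw [swap_apply_def]
    by_cases a : k = i
    · subst a; simp [hij.symm, this]
    by_cases b : k = j
    · subst b; simp [hij, a, this]
    · simp [a, b, Ne.symm a, Ne.symm b]
  rw [Orth.refl_apply, h1, s.gram, h3 k, h3 l]
  module

theorem refl_mem (h2 : (2 : F) ≠ 0) {i j : I} (hij : i ≠ j) : Orth.refl Q (E i - E j) ∈ stab (roots E) := by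
  have : ∀ x ∈ roots E, Orth.refl Q (E i - E j) x ∈ roots E := by
    rintro _ ⟨k, l, h, rfl⟩
    exact ⟨_, _, (swap i j).injective.ne h, (s.refl h2 hij).2 k l⟩
  exact mem_stab this (by rwa [Orth.refl_inv])

theorem inj (h2 : (2 : F) ≠ 0) (h3 : (3 : F) ≠ 0) {i j k l : I} (hij : i ≠ j) (e : E i - E j = E k - E l) :
    i = k ∧ j = l := by
  have h1 := s.gram i j i j
  have h4 : (4 : F) ≠ 0 := by
    have := mul_ne_zero h2 h2
    norm_num at this; exact this
  rw [show Orth.B Q (E i - E j) (E i - E j) = Orth.B Q (E i - E j) (E k - E l) by rw [← e], s.gram] at h1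
  simp only [if_true, hij, hij.symm, if_false] at h1
  by_contra hne
  apply s.c0
  split_ifs at h1 <;> first
    | (exfalso; simp_all; done)
    | linear_combination -h1
    | exact (mul_eq_zero.1 (show 2 * c = 0 by linear_combination -h1)).resolve_left h2
    | exact (mul_eq_zero.1 (show 3 * c = 0 by linear_combination -h1)).resolve_left h3
    | exact (mul_eq_zero.1 (show 4 * c = 0 by linear_combination -h1)).resolve_left h4

theorem not_le (h : Cl B Q ι) (h7 : (7 : F) = 0) {f : Fin 7 → I} (hf : Function.Injective f) :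
    ¬ Img ι (Sp B) ≤ stab (roots E) := by
  intro hle
  have hc := s.c0
  have g := fun a b c d => s.gram (f a) (f b) (f c) (f d)
  simp only [hf.eq_iff] at g
  have qa : Q (E (f 0) - E (f 2) + (E (f 1) - E (f 3))) = 2 * c := Q_eq h.two (by
    simp only [map_add, LinearMap.add_apply, g]; simp; ring)
  have qb : Q (E (f 1) - E (f 5) + (E (f 2) - E (f 6))) = 2 * c := Q_eq h.two (by
    simp only [map_add, LinearMap.add_apply, g]; simp; ring)
  obtain ⟨i, j, hij, e⟩ := (hle (lift_refl h (qa ▸ mul_ne_zero h.two hc) (qa.trans qb.symm))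
    (E (f 0) - E (f 4))).2 ⟨_, _, hf.ne (by decide), rfl⟩
  rw [Orth.mul_app, Orth.refl_of_perp (a := E (f 1) - E (f 5) + (E (f 2) - E (f 6))) (by
    simp only [map_add, LinearMap.add_apply, g]; simp), Orth.refl_apply, qa] at e
  have e1 := congrArg (Orth.B Q (E (f 1) - E (f 6))) e
  rw [map_sub (Orth.B Q (E (f 1) - E (f 6))) (E (f 0) - E (f 4)), map_smul, s.gram _ _ i j] at e1
  simp only [map_add, LinearMap.add_apply, g] at e1
  have h2 := h.two
  have e2 : (2 * c)⁻¹ * c * c * 2 = c := by field_simp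
  simp only [Fin.reduceEq, if_false, if_true, sub_zero, add_zero, smul_eq_mul, sub_self, zero_add] at e1
  apply hc
  split_ifs at e1 <;> first
    | linear_combination -2 * e1 - e2
    | linear_combination 2 * e1 + e2
    | linear_combination 4 * e1 + 2 * e2 + c * h7
    | linear_combination -4 * e1 - 2 * e2 + c * h7
    | linear_combination -6 * e1 - 3 * e2 - 2 * c * h7

end Rt

theorem Sx.rt {e : Fin 6 → W} {c : F} (s : Sx Q e c) (h7 : (7 : F) = 0) :
    Rt Q (fun i : Option (Fin 6) => i.elim 0 e) c := by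
  refine ⟨fun i j k l => ?_, s.c0⟩
  have key : ∀ i k : Option (Fin 6), Orth.B Q (i.elim 0 e) (k.elim 0 e) =
      (if i = k then c else 0) + c - i.elim c (fun _ => 0) - k.elim c (fun _ => 0) := by
    rintro (_ | i) (_ | k) <;> simp [s.gram]
    split_ifs
    · linear_combination -c * h7
    · simp
  simp only [map_sub, LinearMap.sub_apply, key]
  ring

namespace Ctx

variable {H P : Subgroup (W ≃ₗ[F] W)} (C : Ctx B Q ι H P)
include C

theorem mem_O {g : W ≃ₗ[F] W} (hg : g ∈ H) : g ∈ Orth.O Q :=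
  let ⟨_, _, r⟩ := C.leS hg
  C.cl.rel_O r

theorem exists_sx {e : Fin 6 → W} (h0 : e 0 ≠ 0) (hP : ∀ k ∈ P, ∃ α, Act k e α)
    (h2 : ∀ i j, i ≠ j → ∃ k ∈ P, k (e 0) = e i ∧ k (e 1) = e j) : ∃ c, Sx Q e c := by
  have g1 : ∀ i j, i ≠ j → Orth.B Q (e i) (e j) = Orth.B Q (e 0) (e 1) := fun i j hij => by
    obtain ⟨k, hk, a, b⟩ := h2 i j hij
    rw [← a, ← b, Orth.O_B (C.mem_O (C.le hk))]
  have g2 : ∀ i, Orth.B Q (e i) (e i) = Orth.B Q (e 0) (e 0) := fun i => by
    obtain ⟨j, hj⟩ := exists_ne i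
    obtain ⟨k, hk, a, b⟩ := h2 i j hj.symm
    rw [← a, Orth.O_B (C.mem_O (C.le hk))]
  have g3 : ∑ i, e i = 0 := C.nofix _ fun k hk => by
    obtain ⟨α, hα⟩ := hP k hk
    rw [map_sum, sum_congr rfl fun i _ => hα i, Equiv.sum_comp α e]
  have g4 := congrArg (Orth.B Q (e 0)) g3
  rw [map_sum, Fin.sum_univ_succ, sum_congr rfl fun i _ => g1 0 _ (Fin.succ_ne_zero i).symm] at g4
  simp only [sum_const, card_univ, Fintype.card_fin, nsmul_eq_mul, map_zero, Nat.cast_ofNat] at g4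
  have gram : ∀ i j, Orth.B Q (e i) (e j) = Orth.B Q (e 0) (e 1) -
      if i = j then 6 * Orth.B Q (e 0) (e 1) else 0 := fun i j => by
    split_ifs with h
    · rw [h, g2]; linear_combination g4
    · rw [g1 i j h, sub_zero]
  refine ⟨_, gram, fun h6 => h0 (C.nofix _ fun k hk => ?_)⟩
  obtain ⟨α, hα⟩ := hP k hk
  rw [hα, ← sub_eq_zero]
  refine C.nots (Set.range fun p : Fin 6 × Fin 6 => e p.1 - e p.2) (Set.finite_range _) ?_ ?_ _ ⟨(_, _), rfl⟩
  · rintro k hk _ ⟨p, rfl⟩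
    obtain ⟨α, hα⟩ := hP k hk
    exact ⟨(α p.1, α p.2), by simp [hα p.1, hα p.2]⟩
  · rintro _ ⟨p, rfl⟩ _ ⟨q, rfl⟩
    simp only [map_sub, LinearMap.sub_apply]
    rw [gram p.1, gram p.1, gram p.2, gram p.2]
    simp [h6]

theorem sx_norm {e : Fin 6 → W} {c : F} (s : Sx Q e c) (hP : ∀ k ∈ P, ∃ α, Act k e α)
    (ht : ∀ i, ∃ k ∈ P, k ≠ 1 ∧ k ^ 5 = 1 ∧ k (e i) = e i) {g : W ≃ₗ[F] W} (hg : g ∈ H) :
    ∃ (ε : F) (σ : Perm (Fin 6)), (ε = 1 ∨ ε = -1) ∧ ∀ i, g (e i) = ε • e (σ i) := by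
  have hW := C.cl.dim
  have key : ∀ i, ∃ (j : Fin 6) (l : F), g (e i) = l • e j := fun i => by
    obtain ⟨k, hk, k1, k5, ki⟩ := ht i
    have hk' := C.norm g hg k hk
    obtain ⟨α, hα⟩ := hP _ hk'
    obtain ⟨j, hj⟩ := five_cycle (α := α) (Equiv.ext fun a => s.inj (by
      rw [← hα.pow 5 a, conj_pow, k5]; simp)) (by
      rintro rfl
      exact k1 (by simpa using s.ext hW (k' := 1) hα))
    have h1 : ∀ n : ℕ, ((g * k * g⁻¹) ^ n) (g (e i)) = g (e i) := fun n => by
      induction n with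
      | zero => rfl
      | succ n ih => rw [pow_succ, Orth.mul_app, Orth.mul_app, Orth.mul_app, Orth.inv_apply_apply, ki, ih]
    obtain ⟨a, ha⟩ := exists_ne j
    have h2 : ∀ b, b ≠ j → Orth.B Q (e b) (g (e i)) = Orth.B Q (e a) (g (e i)) := fun b hb => by
      obtain ⟨n, rfl⟩ := hj a b ha hb
      rw [← hα.pow n a, ← Orth.O_B (C.mem_O (pow_mem (C.le hk') n)) (e a), h1]
    have h3 := congrArg (fun x => Orth.B Q x (g (e i))) (s.sum hW C.cl.nd)
    simp only [map_sum, LinearMap.sum_apply, map_zero, LinearMap.zero_apply] at h3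
    rw [← add_sum_erase _ _ (mem_univ j), sum_congr rfl fun b hb => h2 b (mem_erase.1 hb).1, sum_const,
      card_erase_of_mem (mem_univ j)] at h3
    refine ⟨j, Orth.B Q (e a) (g (e i)) / c, sub_eq_zero.1 (s.eq_zero hW C.cl.nd fun b => ?_)⟩
    have := s.c0
    rw [map_sub, map_smul, s.gram, smul_eq_mul]
    split_ifs with hb
    · simp only [card_univ, Fintype.card_fin, nsmul_eq_mul] at h3
      rw [hb]; field_simp; linear_combination h3
    · rw [h2 b hb]; field_simp; ring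
  choose σ l hl using key
  have l0 : ∀ i, l i ≠ 0 := fun i h => by
    have h1 := hl i
    rw [h, zero_smul, map_eq_zero_iff _ g.injective] at h1
    obtain ⟨j, hj⟩ := exists_ne i
    have := s.gram i j
    rw [h1, if_neg hj.symm] at this
    exact s.c0 (by simpa using this.symm)
  have ex : ∀ i j : Fin 6, ∃ m, m ≠ i ∧ m ≠ j := by decide
  have hσ : Function.Injective σ := fun i j h => by
    obtain ⟨m, m1, m2⟩ := ex i j
    have h1 : l j • e i = l i • e j := g.injective (by rw [map_smul, map_smul, hl, hl, h, smul_comm])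
    have h2 := congrArg (Orth.B Q (e m)) h1
    simp only [map_smul, s.gram, m1, m2, if_false, sub_zero, smul_eq_mul] at h2
    rw [mul_right_cancel₀ s.c0 h2] at h1
    exact s.inj (smul_right_injective W (l0 i) h1)
  have h1 : ∀ i j, i ≠ j → l i * l j = 1 := fun i j hij => by
    have := Orth.O_B (C.mem_O hg) (e i) (e j)
    simp only [hl, map_smul, LinearMap.smul_apply, s.gram, hij, hσ.ne hij, if_false, smul_eq_mul] at this
    exact mul_right_cancel₀ s.c0 (by linear_combination this)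
  have h2 : ∀ i, l i = l 0 := fun i => by
    obtain ⟨m, m1, m2⟩ := ex i 0
    exact mul_right_cancel₀ (l0 m) ((h1 i m m1.symm).trans (h1 0 m m2.symm).symm)
  refine ⟨l 0, Equiv.ofBijective σ (Finite.injective_iff_bijective.1 hσ), mul_self_eq_one_iff.1 ?_,
    fun i => by rw [hl, h2]; rfl⟩
  have := h1 0 1 (by decide)
  rwa [h2 1] at this

theorem core5 {e : Fin 6 → W} {c : F} (s : Sx Q e c) (hP : ∀ k ∈ P, ∃ α, Act k e α)
    (ht : ∀ i, ∃ k ∈ P, k ≠ 1 ∧ k ^ 5 = 1 ∧ k (e i) = e i) {k : W ≃ₗ[F] W} (hk : k ∈ P) {α : Perm (Fin 6)}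
    (hα : Act k e α) (hτ : ∀ k' ∈ P, ¬ Act k' e (swap 0 1 * swap 1 2 * α * (swap 0 1 * swap 1 2)⁻¹)) :
    False := by
  have h2 := C.cl.two
  let S : Set W := {x | ∃ (ε : F) (i : Fin 6), (ε = 1 ∨ ε = -1) ∧ x = ε • e i}
  have hH : ∀ g ∈ H, ∀ x ∈ S, g x ∈ S := by
    rintro g hg _ ⟨ε, i, h, rfl⟩
    obtain ⟨ε', σ, h', e'⟩ := C.sx_norm s hP ht hg
    exact ⟨ε * ε', σ i, by rcases h with rfl | rfl <;> rcases h' with rfl | rfl <;> simp,
      by rw [map_smul, e', smul_smul]⟩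
  have hr : ∀ i j, i ≠ j → Orth.refl Q (e i - e j) ∈ stab S := fun i j hij => by
    have : ∀ x ∈ S, Orth.refl Q (e i - e j) x ∈ S := by
      rintro _ ⟨ε, l, h, rfl⟩
      exact ⟨ε, _, h, by rw [map_smul, (s.refl h2 hij).2]⟩
    exact mem_stab this (by rwa [Orth.refl_inv])
  rcases C.max (stab S) fun g hg => mem_stab (hH g hg) (hH _ (inv_mem hg)) with h | h
  · obtain ⟨a1, a2⟩ := s.refl h2 (show (0 : Fin 6) ≠ 1 by decide)
    obtain ⟨b1, b2⟩ := s.refl h2 (show (1 : Fin 6) ≠ 2 by decide)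
    exact hτ _ (C.norm _ (h ⟨mul_mem (hr 0 1 (by decide)) (hr 1 2 (by decide)),
      lift_refl C.cl (a1 ▸ neg_ne_zero.2 s.six) (a1.trans b1.symm)⟩) k hk) (((a2.mul b2).mul hα).mul (a2.mul b2).inv)
  · have qa : Q (e 0 + e 1 - e 2 - e 3) = -(2 * (6 * c)) := Q_eq h2 (by simp [s.gram]; ring)
    have qb : Q (e 2 + e 3 - e 4 - e 5) = -(2 * (6 * c)) := Q_eq h2 (by simp [s.gram]; ring)
    have h6 := s.six
    obtain ⟨ε, j, -, e1⟩ := (h (lift_refl C.cl (qa ▸ neg_ne_zero.2 (mul_ne_zero h2 h6)) (qa.trans qb.symm))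
      (e 0)).2 ⟨1, 0, Or.inl rfl, (one_smul _ _).symm⟩
    rw [Orth.mul_app, Orth.refl_of_perp (a := e 2 + e 3 - e 4 - e 5) (by simp [s.gram]), Orth.refl_apply,
      qa] at e1
    have f1 := congrArg (Orth.B Q (e 1 - e 4)) e1
    have f2 := congrArg (Orth.B Q (e 2 - e 5)) e1
    fin_cases j <;> simp [s.gram, h2, s.c0, left_ne_zero_of_mul h6] at f1 f2

theorem core6 (h7 : (7 : F) = 0) {e : Fin 6 → W} {c : F} (s : Sx Q e c) (hP : ∀ k ∈ P, ∃ α, Act k e α)
    (ht : ∀ i, ∃ k ∈ P, k ≠ 1 ∧ k ^ 5 = 1 ∧ k (e i) = e i) : False := by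
  have h2 := C.cl.two
  have r := s.rt h7
  set E := fun i : Option (Fin 6) => i.elim 0 e with hE
  have hH : ∀ g ∈ H, ∀ x ∈ roots E, g x ∈ roots E := by
    rintro g hg _ ⟨i, j, h, rfl⟩
    obtain ⟨ε, σ, h', e'⟩ := C.sx_norm s hP ht hg
    have h1 : ∀ i, g (E i) = ε • E (σ.optionCongr i) := by rintro (_ | i) <;> simp [hE, e']
    rcases h' with rfl | rfl
    · exact ⟨_, _, σ.optionCongr.injective.ne h, by simp [h1]⟩
    · exact ⟨_, _, σ.optionCongr.injective.ne h.symm, by simp [h1, neg_add_eq_sub]⟩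
  refine r.not_le C.cl h7 (finSuccEquiv 6).injective ((C.max _ fun g hg =>
    mem_stab (hH g hg) (hH _ (inv_mem hg))).resolve_left fun h => ?_)
  obtain ⟨a1, a2⟩ := r.refl h2 (show some (0 : Fin 6) ≠ none by simp)
  obtain ⟨b1, b2⟩ := r.refl h2 (show some (0 : Fin 6) ≠ some 1 by decide)
  obtain ⟨ε, σ, -, e'⟩ := C.sx_norm s hP ht (h ⟨mul_mem (r.refl_mem h2 (by simp)) (r.refl_mem h2 (by decide)),
      lift_refl C.cl (a1 ▸ s.c0) (a1.trans b1.symm)⟩)
  have e1 := e' 2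
  rw [Orth.mul_app, show e 2 = E (some 2) - E none by simp [hE], b2, a2] at e1
  have e2 : e 2 - e 0 = ε • e (σ 2) := e1
  have f1 := congrArg (Orth.B Q (e 2 - e 3)) e2
  have f2 := congrArg (Orth.B Q (e 0 - e 4)) e2
  generalize σ 2 = j at f1 f2
  fin_cases j <;> simp [s.gram, h2, s.c0, left_ne_zero_of_mul s.six] at f1 f2

theorem core7 (h7 : (7 : F) = 0) {E : Fin 7 → W} {c : F} (r : Rt Q E c) (hH : H ≤ P)
    (hP : ∀ k ∈ P, ∃ α : Perm (Fin 7), α ≠ swap 0 1 * swap 1 2 ∧ ∀ i j, k (E i - E j) = E (α i) - E (α j)) :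
    False := by
  have h2 := C.cl.two
  have h3 : (3 : F) ≠ 0 := fun e => one_ne_zero (α := F) (by linear_combination h7 - 2 * e)
  have hH' : ∀ g ∈ H, ∀ x ∈ roots E, g x ∈ roots E := by
    rintro g hg _ ⟨i, j, h, rfl⟩
    obtain ⟨α, -, e⟩ := hP g (hH hg)
    exact ⟨_, _, α.injective.ne h, e i j⟩
  refine r.not_le C.cl h7 Function.injective_id ((C.max _ fun g hg =>
    mem_stab (hH' g hg) (hH' _ (inv_mem hg))).resolve_left fun h => ?_)
  obtain ⟨a1, a2⟩ := r.refl h2 (show (0 : Fin 7) ≠ 1 by decide)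
  obtain ⟨b1, b2⟩ := r.refl h2 (show (1 : Fin 7) ≠ 2 by decide)
  obtain ⟨α, hα, e⟩ := hP _ (hH (h ⟨mul_mem (r.refl_mem h2 (by decide)) (r.refl_mem h2 (by decide)),
      lift_refl C.cl (a1 ▸ r.c0) (a1.trans b1.symm)⟩))
  refine hα (Equiv.ext fun i => ?_)
  obtain ⟨j, hj⟩ := exists_ne i
  have e1 := e i j
  rw [Orth.mul_app, b2, a2] at e1
  exact (r.inj h2 h3 (α.injective.ne hj.symm) e1.symm).1

end Ctx

end Cfsg.Agent.H5.S4
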