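import Cfsg.Agent.H5.S4.W2

/-! Regular unipotent elements, words, and the passage from `Sp₄` to `Ω₅`. -/

set_option autoImplicit false
set_option linter.unusedSimpArgs false
set_option linter.unusedSectionVars false
set_option linter.unusedVariables false

namespace Cfsg.Agent.H5.S4

open Module Cfsg.Agent.H6 Cfsg.Agent.H9.Sp Equiv Finset

attribute [-simp] LinearEquiv.coe_inv Submodule.mem_map_equiv

variable {F V W : Type*} [Field F] [AddCommGroup V] [Module F V] [FiniteDimensional F V]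
  [AddCommGroup W] [Module F W] [FiniteDimensional F W]
  {B : V →ₗ[F] V →ₗ[F] F} {Q : QuadraticForm F W} {ι : W →ₗ[F] End F V}

theorem rank_cube (hV : finrank F V = 4) {N : End F V} (h4 : N ^ 4 = 0) {v : V} (hv : (N ^ 3) v ≠ 0) (w : V) :
    ∃ c : F, (N ^ 3) w = c • (N ^ 3) v := by
  have h1 : ∀ i, i ≤ 2 → finrank F (LinearMap.ker (N ^ i)) < finrank F (LinearMap.ker (N ^ (i + 1))) :=
    fun i hi => Submodule.finrank_lt_finrank_of_lt (lt_of_le_of_ne (fun x hx => by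
      rw [LinearMap.mem_ker, pow_succ', End.mul_apply, LinearMap.mem_ker.1 hx, map_zero]) fun e => by
      have e1 := End.ker_pow_constant e (3 - i)
      have e2 := End.ker_pow_constant e (4 - i)
      rw [show i + (3 - i) = 3 by omega] at e1
      rw [show i + (4 - i) = 4 by omega, h4, e1, LinearMap.ker_zero] at e2
      exact hv (LinearMap.mem_ker.1 (e2 ▸ Submodule.mem_top)))
  have h2 := LinearMap.finrank_range_add_finrank_ker (N ^ 3)
  have f0 := h1 0 (by simp); have f1 := h1 1 (by simp); have f2 := h1 2 (by simp)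
  simp only [zero_add, Nat.reduceAdd] at f0 f1 f2
  obtain ⟨z, hz⟩ := finrank_le_one_iff.1 (show finrank F (LinearMap.range (N ^ 3)) ≤ 1 by omega)
  obtain ⟨a, ha⟩ := hz ⟨_, v, rfl⟩
  obtain ⟨b, hb⟩ := hz ⟨_, w, rfl⟩
  replace ha : a • z.1 = (N ^ 3) v := congrArg Subtype.val ha
  replace hb : b • z.1 = (N ^ 3) w := congrArg Subtype.val hb
  have : a ≠ 0 := by rintro rfl; exact hv (by simp [← ha])
  exact ⟨b / a, by rw [← ha, ← hb, smul_smul, div_mul_cancel₀ _ this]⟩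

theorem unip (h : Cl B Q ι) (h7 : (7 : F) = 0) {k g : W ≃ₗ[F] W} (hk : k ∈ Img ι (Sp B)) (k7 : k ^ 7 = 1)
    {x : W} (hx : k (k (k x)) - (3 : F) • k (k x) + (3 : F) • k x - x ≠ 0) (hg : g ∈ Img ι (Sp B))
    (e : g * k * g⁻¹ = k⁻¹) : IsSquare (-1 : F) := by
  obtain ⟨u0, hu0, r0⟩ := hk
  obtain ⟨a, ha, ra⟩ := hg
  have rp : ∀ n : ℕ, Rel ι (u0 ^ n) (k ^ n) := fun n => by
    induction n with
    | zero => exact Rel.one
    | succ n ih => rw [pow_succ, pow_succ]; exact ih.mul r0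
  have n2 : (LinearEquiv.neg F : V ≃ₗ[F] V) ^ 2 = 1 := by ext; simp [sq]
  obtain ⟨u, hu, r, u7⟩ : ∃ u ∈ Sp B, Rel ι u k ∧ u ^ 7 = 1 := by
    refine ⟨u0 ^ 8, pow_mem hu0 8, by simpa [pow_succ k 7, k7] using rp 8, ?_⟩
    rw [← pow_mul, mul_comm, pow_mul]
    rcases h.ker (pow_mem hu0 7) (k7 ▸ rp 7) with e | e <;> rw [e]
    exacts [one_pow _, by rw [show 8 = 2 * 4 from rfl, pow_mul, n2, one_pow]]
  have hau : a * u * a⁻¹ = u⁻¹ := (lift_eq h (inv_mem hu) (mul_mem (mul_mem ha hu) (inv_mem ha)) r.inv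
      (e ▸ (ra.mul r).mul ra.inv)).resolve_right fun e => by
    have e1 := congrArg (· ^ 7) e
    simp only [conj_pow, u7, mul_one, mul_inv_cancel] at e1
    rw [Commute.mul_pow (by ext; simp), inv_pow, u7, show 7 = 2 * 3 + 1 from rfl, pow_succ, pow_mul, n2] at e1
    obtain ⟨v, hv⟩ := h.exists_ne
    have e2 : v = -v := by simpa using LinearEquiv.congr_fun e1 v
    exact hv ((smul_eq_zero.1 (show (2 : F) • v = 0 by rw [two_smul]; nth_rw 2 [e2]; simp)).resolve_left h.two)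
  obtain ⟨N, hN⟩ : ∃ N : End F V, N = u.toLinearMap - 1 := ⟨_, rfl⟩
  obtain ⟨M, hM⟩ : ∃ M : End F V, M = (u⁻¹).toLinearMap - 1 := ⟨_, rfl⟩
  have N4 : N ^ 4 = 0 := by
    haveI : Nontrivial V := ⟨⟨_, _, h.exists_ne.choose_spec⟩⟩
    haveI : Fact (Nat.Prime 7) := ⟨by decide⟩
    haveI : CharP F 7 := (CharP.charP_iff_prime_eq_zero (by decide)).2 (by simpa using h7)
    haveI : CharP (End F V) 7 := charP_of_injective_algebraMap (algebraMap F (End F V)).injective 7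
    rw [← h.dimV, ← LinearMap.ker_eq_top, ← End.ker_pow_eq_ker_pow_finrank_of_le (m := 7) (by simp [h.dimV]),
      hN, sub_pow_char_of_commute _ (Commute.one_right _), show u.toLinearMap ^ 7 = (u ^ 7).toLinearMap from
        (map_pow LinearEquiv.automorphismGroup.toLinearMapMonoidHom u 7).symm, u7]
    simp [End.one_eq_id]
  have adj : ∀ v w, B (N v) w = B v (M w) := fun v w => by simp [hN, hM, Sp_left hu]
  have uN : ∀ v, u v = v + N v := fun v => by simp [hN]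
  have MN : ∀ v, M v = - u⁻¹ (N v) := fun v => by simp [hN, hM]
  have cN : ∀ v, N (u⁻¹ v) = u⁻¹ (N v) := fun v => by simp [hN]
  have fx : ∀ v, N v = 0 → u⁻¹ v = v := fun v hv => u.injective (by simp [uN v, hv])
  have p3 : ∀ (X : End F V) v, (X ^ 3) v = X (X (X v)) := fun X v => by simp [pow_succ]
  have n4 : ∀ v, N (N (N (N v))) = 0 := fun v => by simpa [pow_succ] using LinearMap.congr_fun N4 v
  have M3 : ∀ v, M (M (M v)) = - N (N (N v)) := fun v => by simp [MN, cN, fx _ (n4 v)]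
  have sy : ∀ v w, B (N (N (N v))) w = B (N (N (N w))) v := fun v w => by
    rw [adj, adj, adj, M3, map_neg, ← h.symp.skew]
  obtain ⟨v, hv⟩ : ∃ v, B (N (N (N v))) v ≠ 0 := by
    by_contra! h0
    have n3 : ∀ v, N (N (N v)) = 0 := fun v => h.symp.nd' _ fun w => by
      have := h0 (v + w)
      simp only [map_add, LinearMap.add_apply, h0, sy w v] at this
      exact (mul_eq_zero.1 (show 2 * B (N (N (N v))) w = 0 by linear_combination this)).resolve_left h.two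
    obtain ⟨y, hy⟩ := h.surj (N * N) (fun v w => by simp [adj, MN, cN, fx _ (n3 w)])
      (LinearMap.isNilpotent_trace_of_isNilpotent ⟨2, by rw [← sq, ← pow_mul, N4]⟩).eq_zero
    have n2 : ∀ v, N (N v) = 0 := fun v => by
      have : y = 0 ∨ ∀ v, N (N v) = 0 := by
        refine or_iff_not_imp_right.2 fun h1 => h.nd _ fun z => by_contra fun hz => h1 fun v => ?_
        have := congrArg N (h.anti z y (N v))
        simp only [hy, End.mul_apply, n3, map_zero, map_sub, map_smul, sub_zero] at this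
        exact (smul_eq_zero.1 this.symm).resolve_left hz
      rcases this with rfl | h1
      · simpa using (LinearMap.congr_fun hy v).symm
      · exact h1 v
    have h1 : ∀ y v, ι (k y) v = ι y (v - N v) + N (ι y (v - N v)) := fun y v => by
      rw [← uN, r, uN]; simp [n2]
    refine hx (h.inj fun v => ?_)
    simp only [map_add, map_sub, map_smul, LinearMap.add_apply, LinearMap.sub_apply, LinearMap.smul_apply, h1, n2,
      map_zero, LinearMap.zero_apply]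
    module
  obtain ⟨c, hc⟩ := rank_cube h.dimV N4 (v := v) (fun e => hv (by rw [← p3, e]; simp)) (a v)
  have aN : ∀ v, a (N v) = M (a v) := fun v => by simp [hN, hM, ← hau]
  have e1 := ha (N (N (N v))) v
  rw [p3, p3] at hc
  rw [aN, aN, aN, M3, hc, map_neg, map_smul, LinearMap.neg_apply, LinearMap.smul_apply, sy, hc, map_smul,
    LinearMap.smul_apply] at e1
  exact ⟨c, mul_right_cancel₀ hv (by simp only [smul_eq_mul] at e1; linear_combination e1)⟩

theorem Ctx.of_sp (h : Cl B Q ι) {H P : Subgroup (V ≃ₗ[F] V)} (le : P ≤ H) (leS : H ≤ Sp B)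
    (norm : ∀ g ∈ H, ∀ k ∈ P, g * k * g⁻¹ ∈ P)
    (irr : ∀ U : Submodule F V, (∀ g ∈ P, ∀ v ∈ U, g v ∈ U) → U = ⊥ ∨ U = ⊤)
    (schur : ∀ X : End F V, (∀ g ∈ P, ∀ v, X (g v) = g (X v)) → ∃ c : F, ∀ v, X v = c • v)
    (cent : ∀ g ∈ H, (∀ k ∈ P, ∃ c : F, ∀ v, (g * k * g⁻¹ * k⁻¹) v = c • v) → ∃ c : F, ∀ v, g v = c • v)
    (max : ∀ M, H ≤ M → M ≤ Sp B → M = H ∨ M = Sp B) : Ctx B Q ι (Img ι H) (Img ι P) := by
  have ex : ∀ g ∈ P, ∃ k ∈ Img ι P, Rel ι g k := fun g hg =>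
    let ⟨k, r⟩ := h.exists_rel (leS (le hg))
    ⟨k, ⟨g, hg, r⟩, r⟩
  refine ⟨h, fun k ⟨g, a, b⟩ => ⟨g, le a, b⟩, fun k ⟨g, a, b⟩ => ⟨g, leS a, b⟩,
    fun k ⟨g, a, b⟩ k' ⟨g', a', b'⟩ => ⟨_, norm g a g' a', (b.mul b').mul b.inv⟩, fun x hx => ?_,
    fun S hS h1 h2 x hx => ?_, fun k ⟨g, a, b⟩ hk => ?_, fun M hM => ?_⟩
  · obtain ⟨c, hc⟩ := schur (ι x) fun g hg v => by
      obtain ⟨k, hk, r⟩ := ex g hg
      rw [r, hx k hk]
    exact eq_zero_of_scalar h hc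
  · have : ∃ v, v ≠ 0 ∧ ∀ x ∈ S, ι x v = 0 := by
      refine Set.Finite.induction_on_subset S hS (by simpa using h.exists_ne) ?_
      rintro a s ha hs - ⟨v, v0, hv⟩
      by_cases e : ι a v = 0
      · exact ⟨v, v0, by simpa [e] using hv⟩
      refine ⟨_, e, ?_⟩
      rintro x (rfl | hx)
      · rw [h.sq, Q_eq h.two (t := 0) (by simp [h2 x ha x ha]), zero_smul]
      · simp [h.anti x a, h2 x (hs hx) a ha, hv x hx]
    obtain ⟨v, v0, hv⟩ := this
    have e := (irr (⨅ x ∈ S, LinearMap.ker (ι x)) fun g hg v hv => by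
      obtain ⟨k, hk, r⟩ := ex g hg
      simp only [Submodule.mem_iInf, LinearMap.mem_ker] at hv ⊢
      intro x hx
      have := r (k⁻¹ x) v
      rw [hv _ (h1 _ (inv_mem hk) x hx)] at this
      simpa using this.symm).resolve_left fun e => v0 ((Submodule.mem_bot F).1 (e ▸ by simpa using hv))
    simp only [iInf_eq_top, LinearMap.ker_eq_top] at e
    exact h.inj fun v => by simp [e x hx]
  · obtain ⟨c, hc⟩ := cent g a fun g' hg' => by
      obtain ⟨k', hk', r⟩ := ex g' hg'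
      have h1 := leS a
      have h2 := leS (le hg')
      rcases h.ker (mul_mem (mul_mem (mul_mem h1 h2) (inv_mem h1)) (inv_mem h2)) (by
        simpa [hk k' hk'] using ((b.mul r).mul b.inv).mul r.inv) with e | e <;> rw [e]
      exacts [⟨1, by simp⟩, ⟨-1, by simp⟩]
    exact eq_one_of_scalar h b hc
  · let M' : Subgroup (V ≃ₗ[F] V) :=
      { carrier := {g | g ∈ Sp B ∧ ∃ k ∈ M, Rel ι g k}
        one_mem' := ⟨one_mem _, 1, one_mem _, Rel.one⟩
        mul_mem' := fun ⟨a, k, b, c⟩ ⟨a', k', b', c'⟩ => ⟨mul_mem a a', _, mul_mem b b', c.mul c'⟩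
        inv_mem' := fun ⟨a, k, b, c⟩ => ⟨inv_mem a, _, inv_mem b, c.inv⟩ }
    refine (max M' (fun g hg => ?_) fun g hg => hg.1).imp (fun e k ⟨a, g, b, c⟩ => ⟨g, e.le ⟨b, k, a, c⟩, c⟩)
      fun e k ⟨g, b, c⟩ => ?_
    · obtain ⟨k, r⟩ := h.exists_rel (leS hg)
      exact ⟨leS hg, k, hM ⟨g, hg, r⟩, r⟩
    · obtain ⟨-, k', a, c'⟩ : g ∈ M' := e ▸ b
      rwa [rel_unique h c c']

open Matrix in
theorem bridge (h2 : (2 : F) ≠ 0) {H P : Subgroup (GL (Fin 2 ⊕ Fin 2) F)} (hH : Geo.IsMaximalIn (spGL 2 F) H)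
    (hc : Geo.IsResidualCore H P) {Γ : Type*} [Group Γ]
    (e : (P ⧸ (Geo.scalars (Fin 2 ⊕ Fin 2) F).subgroupOf P) ≃* Γ) :
    ∃ (H' : Subgroup ((Fin 5 → F) ≃ₗ[F] (Fin 5 → F))) (κ : Γ →* ((Fin 5 → F) ≃ₗ[F] (Fin 5 → F))),
      Ctx (B0 2 F) (Q0 F) (ι0 F) H' κ.range ∧ Function.Injective κ := by
  have h := cl0 h2
  have sc : ∀ g : GL (Fin 2 ⊕ Fin 2) F, g ∈ Geo.scalars _ F ↔ ∃ c : F, ∀ v, gl0 g v = c • v := fun g => by
    rw [Geo.mem_scalars_iff]
    refine ⟨fun ⟨c, hc⟩ => ⟨c, fun v => by simp [gl0_apply, hc, smul_mulVec]⟩, fun ⟨c, hc⟩ => ?_⟩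
    obtain ⟨v, hv⟩ := h.exists_ne
    refine ⟨Units.mk0 c (by rintro rfl; exact hv ((gl0 g).injective (by simp [hc]))), ?_⟩
    exact toLin'.injective (LinearMap.ext fun v => by simp [← hc, gl0_apply])
  choose ρ hρ using fun g : P => h.exists_rel ((mem_spGL _).1 (hH.1.le (hc.le g.2)))
  let ρ' : P →* _ := MonoidHom.mk' ρ fun a b => rel_unique h (hρ _) (by simpa using (hρ a).mul (hρ b))
  have hker : (Geo.scalars (Fin 2 ⊕ Fin 2) F).subgroupOf P = ρ'.ker := by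
    ext g
    refine (sc g).trans ⟨fun ⟨c, e⟩ => eq_one_of_scalar h (hρ g) e, fun e => ?_⟩
    rcases h.ker ((mem_spGL _).1 (hH.1.le (hc.le g.2))) ((show ρ g = 1 from e) ▸ hρ g) with e | e <;> rw [e]
    exacts [⟨1, by simp⟩, ⟨-1, by simp⟩]
  refine ⟨Img (ι0 F) (H.map gl0.toMonoidHom), (QuotientGroup.lift _ ρ' hker.le).comp e.symm.toMonoidHom, ?_,
    ((QuotientGroup.injective_lift_iff _ _ hker.le).2 hker).comp e.symm.injective⟩
  convert Ctx.of_sp h (P := P.map gl0.toMonoidHom) (Subgroup.map_mono hc.le) ?_ ?_ (fun U hU => hc.absIrred.1 U ?_)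
    (fun X hX => ?_) ?_ fun M h1 h2 => ?_
  · ext k
    constructor
    · rintro ⟨γ, rfl⟩
      obtain ⟨g, hg⟩ := QuotientGroup.mk_surjective (e.symm γ)
      exact ⟨_, ⟨g, g.2, rfl⟩, by simpa [← hg, ρ'] using hρ g⟩
    · rintro ⟨_, ⟨g, hg, rfl⟩, r⟩
      exact ⟨e (⟨g, hg⟩ : P), by simpa [ρ'] using rel_unique h (hρ ⟨g, hg⟩) r⟩
  · rintro _ ⟨g, hg, rfl⟩
    exact hH.1.le hg
  · rintro _ ⟨g, hg, rfl⟩ _ ⟨k, hk, rfl⟩
    exact ⟨_, hc.normal g hg k hk, by simp⟩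
  · rintro _ ⟨g, hg, rfl⟩ _ ⟨w, hw, rfl⟩
    exact hU _ ⟨g, hg, rfl⟩ w hw
  · obtain ⟨c, e⟩ := hc.absIrred.2 (LinearMap.toMatrix' X) (by
      rintro _ ⟨g, hg, rfl⟩
      refine toLin'.injective (LinearMap.ext fun v => ?_)
      simpa [gl0_apply, ← mulVec_mulVec] using hX _ ⟨g, hg, rfl⟩ v)
    exact ⟨c, fun v => by rw [← LinearMap.toMatrix'_mulVec, e]; simp [smul_mulVec]⟩
  · rintro _ ⟨g, hg, rfl⟩ h1
    exact (sc g).1 (hc.centralizer_scalar g hg fun x hx => (sc _).2 (by simpa using h1 _ ⟨x, hx, rfl⟩))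
  · refine (hH.2 (M.comap gl0.toMonoidHom) (Subgroup.map_le_iff_le_comap.1 h1) fun g hg => h2 hg).imp
      (fun e => ?_) fun e => ?_
    · rw [← e, Subgroup.map_comap_eq_self_of_surjective gl0.surjective]
    · refine le_antisymm h2 fun g hg => ?_
      obtain ⟨g, rfl⟩ := gl0.surjective g
      exact (e.ge hg :)

end Cfsg.Agent.H5.S4
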