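import Cfsg.Agent.H5.S4.W3

/-! The cores `A₅` and (in characteristic seven) `A₆` do not give maximal subgroups of `Sp₄(q)`. -/

set_option autoImplicit false
set_option linter.unusedSimpArgs false
set_option linter.unusedSectionVars false
set_option linter.unusedVariables false

namespace Cfsg.Agent.H5.S4

open Module Cfsg.Agent.H6 Cfsg.Agent.H9.Sp Equiv Finset

attribute [-simp] LinearEquiv.coe_inv Submodule.mem_map_equiv

variable {F V W : Type*} [Field F] [AddCommGroup V] [Module F V] [FiniteDimensional F V]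
  [AddCommGroup W] [Module F W] [FiniteDimensional F W]
  {B : V →ₗ[F] V →ₗ[F] F} {Q : QuadraticForm F W} {ι : W →ₗ[F] End F V}

/-- the value of a word -/
def ev {Γ : Type*} [Monoid Γ] (g : Fin 2 → Γ) (w : List (Fin 2)) : Γ := (w.map g).prod

/-- the values of the words -/
def wd {Γ : Type*} [Monoid Γ] (g : Fin 2 → Γ) : Submonoid Γ where
  carrier := {γ | ∃ w, ev g w = γ}
  one_mem' := ⟨[], rfl⟩
  mul_mem' := fun ⟨w, a⟩ ⟨w', b⟩ => ⟨w ++ w', by rw [← a, ← b]; simp [ev]⟩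

theorem ev_mem {Γ : Type*} [Group Γ] {g : Fin 2 → Γ} (K : Subgroup Γ) (h : ∀ a, g a ∈ K) (w : List (Fin 2)) :
    ev g w ∈ K := K.list_prod_mem (List.forall_mem_map.2 fun a _ => h a)

/-- permutations keeping a ternary relation -/
def keep {I : Type*} (T : I → I → I → Bool) : Subgroup (Perm I) where
  carrier := {α | ∀ i j k, T (α i) (α j) (α k) = T i j k}
  one_mem' _ _ _ := rfl
  mul_mem' ha hb _ _ _ := (ha _ _ _).trans (hb _ _ _)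
  inv_mem' {a} ha i j k := by rw [← ha]; simp

instance {n : ℕ} (T : Fin n → Fin n → Fin n → Bool) (α : Perm (Fin n)) : Decidable (α ∈ keep T) :=
  inferInstanceAs (Decidable (∀ i j k, T (α i) (α j) (α k) = T i j k))

/-- a system of triples -/
def trip {n : ℕ} (L : List ℕ) (i j k : Fin n) : Bool := L.contains (2 ^ i.1 + 2 ^ j.1 + 2 ^ k.1)

/-- a three-cycle -/
def cy {n : ℕ} (i j k : Fin n) : alternatingGroup (Fin n) :=
  if h : i ≠ j ∧ j ≠ k then ⟨swap i j * swap j k, by simp [h]⟩ else 1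

theorem alt_gen {n : ℕ} (g : Fin 2 → alternatingGroup (Fin n)) (L : List (List (Fin 2)))
    (h : ∀ i j k, [i, j, k].Nodup → ∃ w ∈ L, (ev g w).1 = swap i j * swap j k) (γ : alternatingGroup (Fin n)) :
    ∃ w, ev g w = γ := by
  refine (Submonoid.closure_le (S := wd g)).2 (fun τ hτ => ?_) (Subgroup.closure_toSubmonoid_of_finite.le
    (alternatingGroup.closure_isThreeCycles_eq_top.ge (Subgroup.mem_top γ)))
  obtain ⟨a, ha⟩ := card_pos.1 (show 0 < τ.1.support.card by simp [hτ.card_support])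
  obtain ⟨w, -, e⟩ := h _ _ _ (hτ.nodup_iff_mem_support.2 ha)
  exact ⟨w, Subtype.ext (e.trans (hτ.eq_swap_mul_swap_iff_mem_support.2 ha).symm)⟩

theorem three_of_N (h : Cl B Q ι) {s g : W ≃ₗ[F] W} (hs : s ∈ Orth.O Q) (hg : g ∈ Orth.O Q) (s2 : s * s = 1)
    (g3 : g * g * g = 1) (sg : s * g = g * g * s) (t : Three s) (t' : Three (s * g)) {x : W} (hx : s x = -x)
    (hN : x + g x + g (g x) ≠ 0) : Three g := by
  have e1 : ∀ v, g (g (g v)) = v := LinearEquiv.congr_fun g3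
  have e2 : ∀ v, s (g v) = g (g (s v)) := LinearEquiv.congr_fun sg
  simpa [← mul_assoc, s2] using three_mul h hs (mul_mem hs hg) t t' hN (by simp [e1, e2, hx]; abel)
    (by simp [e1, e2, hx]; abel)

variable {Γ : Type*} [Group Γ] {κ : Γ →* (W ≃ₗ[F] W)}

theorem Three.conj' {s : Γ} (h : Three (κ s)) (δ : Γ) : Three (κ (δ * s * δ⁻¹)) := by
  simpa using h.conj (κ δ)

theorem ev_act {G I : Type*} [Monoid G] [MulAction G I] {e : I → W} {g : Fin 2 → Γ} {π : Fin 2 → G}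
    (h : ∀ a i, κ (g a) (e i) = e (π a • i)) (w : List (Fin 2)) (i : I) : κ (ev g w) (e i) = e (ev π w • i) := by
  induction w with
  | nil => simp [ev]
  | cons a w ih => simp only [ev, List.map_cons, List.prod_cons, map_mul, Orth.mul_app, mul_smul] at ih ⊢; rw [ih, h]

theorem ev_fix {g : Fin 2 → Γ} {x : W} (h : ∀ a, κ (g a) x = x) (w : List (Fin 2)) : κ (ev g w) x = x :=
  ev_act (e := fun _ : Unit => x) (π := fun _ => (1 : Perm Unit)) (fun a _ => h a) w ()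

namespace Ctx

variable {H : Subgroup (W ≃ₗ[F] W)} (C : Ctx B Q ι H κ.range)
include C

theorem κS (γ : Γ) : κ γ ∈ Img ι (Sp B) := C.leS (C.le ⟨γ, rfl⟩)

theorem κO (γ : Γ) : κ γ ∈ Orth.O Q := C.mem_O (C.le ⟨γ, rfl⟩)

theorem invol {s g g' : Γ} (h1 : κ s ≠ 1) (h2 : κ (s * s) = 1) (e : κ (s * (g * s * g⁻¹)) = κ (g' * s * g'⁻¹))
    (δ : Γ) : ¬ Plus B ι (κ (δ * s * δ⁻¹)) ∧ Three (κ (δ * s * δ⁻¹)) := by
  have hp : ¬ Plus B ι (κ s) := fun p => by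
    simp only [map_mul, map_inv] at e
    exact not_plus C.cl p (p.conj (C.κS g)) (e ▸ p.conj (C.κS g')) h1 (by simpa) (by rw [e]; simpa)
  exact ⟨fun p => hp (by simpa [mul_assoc] using p.conj (C.κS δ⁻¹)),
    (three_of_minus C.cl (C.κS s) (by rw [← map_mul, h2]) hp).conj' δ⟩

theorem six (hκ : Function.Injective κ) {g : Fin 2 → Γ} (gen : ∀ γ, ∃ w, ev g w = γ) (π : Fin 2 → Perm (Fin 6))
    (ds : Fin 2 → Γ) (c : Fin 6 → List (Fin 2)) (LD L2 : List (List (Fin 2))) (t0 : Three (κ (ds 0)))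
    (t1 : Three (κ (ds 1))) (h : (∀ a i, ∃ w ∈ LD, g a * ev g (c i) = ev g (c (π a i)) * ev ds w) ∧
      (∀ i j, i ≠ j → ∃ w ∈ L2, ev π w 0 = i ∧ ev π w 1 = j) ∧ ev ds [0, 1] ≠ 1 ∧ ev ds [0, 1] ^ 5 = 1) :
    ∃ e c, Sx Q e c ∧ (∀ w, Act (κ (ev g w)) e (ev π w)) ∧ (∀ k ∈ κ.range, ∃ α, Act k e α) ∧
      ∀ i, ∃ k ∈ κ.range, k ≠ 1 ∧ k ^ 5 = 1 ∧ k (e i) = e i := by
  obtain ⟨x, x0, a0, a1⟩ := t0.common C.cl.dim t1
  have hx := ev_fix (g := ds) (Fin.forall_fin_two.2 ⟨a0, a1⟩)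
  have h1 : ∀ w, Act (κ (ev g w)) (fun i => κ (ev g (c i)) x) (ev π w) := ev_act (π := π) fun a i => by
    obtain ⟨w, -, e⟩ := h.1 a i
    rw [← Orth.mul_app, ← map_mul, e, map_mul, Orth.mul_app, hx]; rfl
  have h2 : ∀ k ∈ κ.range, ∃ α, Act k (fun i => κ (ev g (c i)) x) α := by
    rintro _ ⟨γ, rfl⟩
    obtain ⟨w, rfl⟩ := gen γ
    exact ⟨_, h1 w⟩
  obtain ⟨d, s⟩ := C.exists_sx (by simpa) h2 fun i j hij => by
    obtain ⟨w, -, rfl, rfl⟩ := h.2.1 i j hij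
    exact ⟨_, ⟨_, rfl⟩, h1 w 0, h1 w 1⟩
  exact ⟨_, d, s, h1, h2, fun i => ⟨_, ⟨ev g (c i) * ev ds [0, 1] * (ev g (c i))⁻¹, rfl⟩,
    by simpa [map_eq_one_iff _ hκ] using h.2.2.1, by rw [← map_pow, conj_pow, h.2.2.2]; simp, by simp [hx]⟩⟩

end Ctx

/-- generators of `A₅` -/
def g5 : Fin 2 → alternatingGroup (Fin 5) := ![cy 0 1 2, cy 2 3 4]

theorem no5 {κ : alternatingGroup (Fin 5) →* (W ≃ₗ[F] W)} {H : Subgroup (W ≃ₗ[F] W)} (C : Ctx B Q ι H κ.range)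
    (hκ : Function.Injective κ) : False := by
  have gen := alt_gen g5 [[0],[1,0,1,1],[1,1,0,1],[0,0],[1,0,1,1,0,0],[1,1,0,1,0,0],[1,0,0,1,1],[0,1,0,0,1,1],
    [0,1,0,0],[1,1,0,0,1],[0,1,1,0,0,1],[0,1,1,0,0],[1,0,0,1,1,0],[1,1,0,0,1,0],[0,0,1,0,1,1],[0,0,1,0],
    [0,0,1,1,0,1],[0,0,1,1,0],[1],[1,1]] (by decide +kernel)
  let s := ev g5 [0,1,0,0,1,1,0]
  have t := C.invol (s := s) (g := ev g5 [0,0]) (g' := ev g5 [0]) (by rw [Ne, map_eq_one_iff _ hκ]; decide +kernel)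
    (by rw [map_eq_one_iff _ hκ]; decide +kernel) (congrArg κ (by decide +kernel))
  let π : Fin 2 → Perm (Fin 6) := ![List.formPerm [0, 1, 3] * List.formPerm [2, 4, 5],
    List.formPerm [0, 2, 1] * List.formPerm [3, 4, 5]]
  obtain ⟨e, c, sx, h1, h2, h3⟩ := C.six hκ gen π ![1 * s * 1⁻¹, ev g5 [0,1] * s * (ev g5 [0,1])⁻¹]
    ![[],[0],[1],[0,0],[0,1],[0,0,1]] [[],[0,1],[1,0],[1,0,1],[1,0,1,0],[0,1,0]]
    [[],[0,1,0,1,0,0],[1,0,1,0],[1,0],[0,0,1,1],[0,1,0,1,0],[1,1],[0],[1,0,1,1,0,0],[0,1,0],[1],[0,1,0,1],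
    [0,1,1,0,0],[1,1,0,1,0],[1,1,0],[0,0],[0,0,1,0,1,0],[0,0,1,0],[0,1,1],[1,0,1,0,0],[0,0,1,1,0,0],[0,1],
    [1,0,0],[0,0,1,0,1],[1,0,1,1],[1,0,1],[1,1,0,0],[0,1,0,1,1],[0,0,1],[0,1,0,0]] (t _).2 (t _).2
    (by decide +kernel)
  refine C.core5 sx h2 h3 ⟨_, rfl⟩ (h1 [0]) ?_
  rintro _ ⟨γ, rfl⟩ h4
  obtain ⟨w, rfl⟩ := gen γ
  have h5 := ev_mem (g := π) (keep (trip [7, 11, 21, 26, 28, 38, 41, 44, 49, 50])) (by decide +kernel) w
  rw [Equiv.ext fun i => sx.inj ((h1 w i).symm.trans (h4 i))] at h5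
  exact absurd h5 (by decide +kernel)

/-- generators of `A₆` -/
def g6 : Fin 2 → alternatingGroup (Fin 6) := ![cy 0 1 2, cy 1 2 3 * cy 3 4 5]

theorem no6 (h7 : (7 : F) = 0) {κ : alternatingGroup (Fin 6) →* (W ≃ₗ[F] W)} {H : Subgroup (W ≃ₗ[F] W)}
    (C : Ctx B Q ι H κ.range) (hκ : Function.Injective κ) : False := by
  have gen := alt_gen g6 [[0],[0,1,1,0,1,0,1],[1,0,1,1,0,1,0,0],[0,1,0,1,0,1,1],[0,0],[1,0,1,1,1,1],
    [1,0,1,1,0,1,0],[0,0,1,1,1,1,0,1,0],[0,0,1,0,0,1,1,1,1],[1,0,0,1,1,1,1],[1,1,0,1,1,1],[0,0,1,1,0,0,1,0,1,1,1],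
    [0,1,0,1,1,0,1],[0,0,1,0,1,1,0,1],[0,1,1,1,0,1],[1,1,1,0,1,1],[1,1,1,1,0,1],[0,1,1,1,1,0,1],[0,1,1,0,1,0,0,1],
    [1,0,1,1,1,0],[0,1,0,1,1,1,1],[0,1,0,1,1,0,1,0],[1,1,1,1,0,1,0],[1,1,0,1,0,1],[0,1,1,0,1,1,1,0,0],
    [1,0,1,0,0,1,0,1,1,1],[1,0,1,0,0,1,0,1],[0,0,1,1,1,0,1,0,0],[1,1,1,0,1,0,1],[1,0,1,0,1,1],[0,1,0,0,1,0,1,1],
    [0,1,0,1,1,1],[1,0,1,0,1,1,1],[1,1,1,0,1,0,0,1,0,1],[1,1,1,0,1,0],[0,0,1,1,1,0,1,1,0],[1,1,0,1,0,0,1,0],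
    [0,0,1,0,1,1,1,0,0],[1,1,0,1,0,1,1],[1,0,0,1,1,0,1,1,0,0,1]] (by decide +kernel)
  let s := ev g6 [1,0,0,1,0,1,1,1,0]
  let a : alternatingGroup (Fin 6) := cy 0 1 2
  let b : alternatingGroup (Fin 6) := cy 3 4 5
  have s1 : κ s ≠ 1 := by rw [Ne, map_eq_one_iff _ hκ]; decide +kernel
  have s2 : s * s = 1 := by decide +kernel
  have t := fun δ => (C.invol (s := s) (g := ev g6 [0,0,1,0,1,1]) (g' := ev g6 [1,0,1,0,0,1]) s1
    (by rw [s2, map_one]) (congrArg κ (by decide +kernel)) δ).2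
  have na : ¬ Three (κ a) := fun h => by
    obtain ⟨e, c, sx, -, h2, h3⟩ := C.six hκ gen ![List.formPerm [1, 2, 3], List.formPerm [0, 1, 2, 4, 5]]
      ![a, ev g6 [0,0,1,1] * a * (ev g6 [0,0,1,1])⁻¹] ![[],[1],[0,1],[0,0,1],[1,0,1],[1,1,0,1]]
      [[0],[],[1,1,0,1],[0,0,1,0],[0,1],[0,0,1],[1,1,0,0]]
      [[],[0],[0,0],[1,1,0,1,0,1],[1,1,0,0,1,0,1],[0,1,0,1,1,0],[1],[1,0,0],[1,0],[0,0,1,1,0],[1,0,0,1,1,0],
      [0,1,0,0],[0,1],[1,1],[1,1,0],[1,0,1,1,0],[0,0,1],[1,0,0,1],[0,1,1],[0,1,1,0],[1,1,1,0],[0,1,0,1],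
      [0,0,1,0,1],[1,0,1],[1,1,1],[1,1,1,1],[0,1,1,0,1],[1,0,1,0,1],[1,1,0,1],[1,0,0,1,0,1]] h (h.conj' _)
      (by decide +kernel)
    exact C.core6 h7 sx h2 h3
  have nab : ¬ Three (κ (a * b)) := fun h => by
    obtain ⟨e, c, sx, -, h2, h3⟩ := C.six hκ gen ![List.formPerm [0, 1, 3] * List.formPerm [2, 4, 5],
      List.formPerm [0, 2, 1, 4, 3]] ![a * b, ev g6 [1] * (a * b) * (ev g6 [1])⁻¹]
      ![[],[0],[1],[0,0],[0,1],[0,0,1]] [[],[1,0,1,0,0],[0,1,0,0,1,1],[0,1,0,1,0,0],[1,0,0,1,0],[0,1,1,0,1,1]]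
      [[],[1,0,0],[0,0,1,0,0,1,0],[0,1,1,0],[1,1,0,1],[1,0,0,1,0],[0,1,1,0,1],[0],[0,1,0,0],[0,0,1,1,0],
      [0,1,1,0,1,0],[1,1,0,0],[0,0,1,0],[1],[0,1,0,1,0],[0,0],[0,1,0,0,1,0],[1,1,0],[0,0,1,1,0,1],[1,0,1],[1,0],
      [1,0,1,1,0,1],[0,0,1,0,1,0],[0,1,1,0,0],[0,1],[0,0,1,1,0,0],[0,1,0],[0,0,1],[1,1,0,1,0],[1,0,1,0]] h
      (h.conj' _) (by decide +kernel)
    exact C.core6 h7 sx h2 h3
  obtain ⟨y, hy⟩ : ∃ y, κ s y ≠ y := by
    by_contra! h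
    exact s1 (LinearEquiv.ext h)
  have ss : κ s * κ s = 1 := by rw [← map_mul, s2, map_one]
  have hx : κ s (y - κ s y) = -(y - κ s y) := by rw [map_sub, ← Orth.mul_app, ss]; simp
  generalize hz : y - κ s y = x at hx
  have key : ∀ (g : alternatingGroup (Fin 6)) (w : List (Fin 2)), ¬ Three (κ g) →
      g * g * g = 1 ∧ s * g = g * g * s ∧ s * g = ev g6 w * s * (ev g6 w)⁻¹ → x + κ g x + κ g (κ g x) = 0 :=
    fun g w n h => by_contra fun hN => n (three_of_N C.cl (C.κO s) (C.κO g) ss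
      (by rw [← map_mul, ← map_mul, h.1, map_one]) (by rw [← map_mul, ← map_mul, ← map_mul, h.2.1])
      (by simpa using t 1) (by rw [← map_mul, h.2.2]; exact t _) hx hN)
  have e1 := key a [0] na (by decide +kernel)
  have e2 := key b [0,1] (fun h => na (by
    convert h.conj' (ev g6 [1,1,0,0,1]) using 2; decide +kernel)) (by decide +kernel)
  have e3 := key (a * b) [0,0,1] nab (by decide +kernel)
  have e4 := key (a * b * b) [1,1,0,0,1,0] (fun h => nab (by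
    convert h.conj' (ev g6 [1,0,0,1,1]) using 2; decide +kernel)) (by decide +kernel)
  have c1 : ∀ v, κ b (κ a v) = κ a (κ b v) := fun v => by
    rw [← Orth.mul_app, ← Orth.mul_app, ← map_mul, ← map_mul, show b * a = a * b by decide +kernel]
  have c2 : ∀ v, κ b (κ b (κ b v)) = v := fun v => by
    rw [← Orth.mul_app, ← Orth.mul_app, ← map_mul, ← map_mul, show b * b * b = 1 by decide +kernel]; simp
  have e5 := congrArg (κ b) e1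
  have e6 := congrArg (κ b) e5
  simp only [map_mul, Orth.mul_app, map_add, map_zero, c1, c2] at e3 e4 e5 e6
  have h3 : (3 : F) ≠ 0 := fun e => one_ne_zero (α := F) (by linear_combination h7 - 2 * e)
  have : (3 : F) • x = 0 := by linear_combination (norm := module) e2 + e3 + e4 - e5 - e6
  exact hy (sub_eq_zero.1 (hz ▸ (smul_eq_zero.1 this).resolve_left h3)).symm

end Cfsg.Agent.H5.S4
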